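import Cfsg.Agent.Lib.MP.Defs

/-!
# Package BA: products of root groups (see `plans/MP.md`)
-/

set_option autoImplicit false

namespace CfsgLib.MP
open Cfsg CfsgLib.Tits MulAction
open scoped commutatorElement

section
variable {A : Type*} [Group A] {U : ℤ → Subgroup A} {a b i j k l : ℤ} {u v g g' : A}

theorem mem_Iv (hu : u ∈ U k) (h1 : i ≤ k) (h2 : k ≤ j) : u ∈ Iv U i j := by
  exact le_iSup₂ (f := fun k (_ : i ≤ k ∧ k ≤ j) => U k) k ⟨h1, h2⟩ hu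

theorem Iv_mono (hg : g ∈ Iv U i j) (h1 : k ≤ i) (h2 : j ≤ l) : g ∈ Iv U k l := by
  exact (iSup₂_le fun k hk u hu => mem_Iv hu (by omega) (by omega) : Iv U i j ≤ Iv U k l) hg

theorem Iv_le {H : Subgroup A} (h : ∀ k, i ≤ k → k ≤ j → U k ≤ H) : Iv U i j ≤ H := by
  exact iSup₂_le fun k hk => h k hk.1 hk.2

theorem Iv_empty (hg : g ∈ Iv U i j) (h : j < i) : g = 1 := by
  exact Subgroup.mem_bot.1 (Iv_le (H := ⊥) (fun k a b => by omega) hg)

theorem Iv_single (hg : g ∈ Iv U i j) (h1 : i = k) (h2 : j = k) : g ∈ U k := by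
  refine Iv_le (H := U k) (fun l a b => ?_) hg
  obtain rfl : l = k := by omega
  exact le_rfl

theorem Iv_commute (h : ∀ k, i ≤ k → k ≤ j → ∀ u ∈ U k, Commute v u) (hg : g ∈ Iv U i j) : Commute v g := by
  have : Iv U i j ≤ Subgroup.centralizer ({v} : Set A) := Iv_le fun k a b u hu =>
    Subgroup.mem_centralizer_singleton_iff.2 (h k a b u hu).symm.eq
  exact (Subgroup.mem_centralizer_singleton_iff.1 (this hg)).symm

theorem Iv_conj {U' : ℤ → Subgroup A} (h : ∀ k, i ≤ k → k ≤ j → ∀ u ∈ U k, v * u * v⁻¹ ∈ Iv U' a b)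
    (hg : g ∈ Iv U i j) : v * g * v⁻¹ ∈ Iv U' a b := by
  have : Iv U i j ≤ (Iv U' a b).comap (MulAut.conj v).toMonoidHom := Iv_le fun k a b u hu => h k a b u hu
  exact this hg

namespace Cl

theorem mono (h : Cl U a b) (h1 : a ≤ i) (h2 : j ≤ b) : Cl U i j := by
  intro k l a b c u hu v hv
  exact h k l (by omega) b (by omega) u hu v hv

/-- `U_{[i-1,j+1]}` normalises `U_{[i,j]}` -/
theorem conj {i' j' : ℤ} (h : Cl U a b) (hg : g ∈ Iv U i' j') (hg' : g' ∈ Iv U i j)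
    (e : a ≤ i ∧ a ≤ i' ∧ j ≤ b ∧ j' ≤ b ∧ i - 1 ≤ i' ∧ j' ≤ j + 1) : g * g' * g⁻¹ ∈ Iv U i j := by
  obtain ⟨e1, e2, e3, e4, e5, e6⟩ := e
  have hA : ∀ k, i' ≤ k → k ≤ j' → ∀ u ∈ U k, ∀ x ∈ Iv U i j, u * x * u⁻¹ ∈ Iv U i j := by
    intro k h1 h2 u hu x hx
    refine Iv_conj (fun l l1 l2 v hv => ?_) hx
    have hv' : v ∈ Iv U i j := mem_Iv hv l1 l2
    by_cases c1 : k < i
    · rw [show u * v * u⁻¹ = ⁅u, v⁆ * v by rw [commutatorElement_def]; group]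
      exact mul_mem (Iv_mono (h k l (by omega) (by omega) (by omega) u hu v hv) (by omega) (by omega)) hv'
    by_cases c2 : j < k
    · rw [show u * v * u⁻¹ = v * ⁅v⁻¹, u⁆ by rw [commutatorElement_def]; group]
      exact mul_mem hv' (Iv_mono (h l k (by omega) (by omega) (by omega) _ (inv_mem hv) u hu)
        (by omega) (by omega))
    · have hu' : u ∈ Iv U i j := mem_Iv hu (by omega) (by omega)
      exact mul_mem (mul_mem hu' hv') (inv_mem hu')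
  have : Iv U i' j' ≤ Subgroup.normalizer (Iv U i j : Set A) := by
    refine Iv_le fun k h1 h2 u hu => Subgroup.mem_normalizer_iff.2 fun x => ⟨hA k h1 h2 u hu x, fun hx => ?_⟩
    have := hA k h1 h2 _ (inv_mem hu) _ hx
    rwa [show u⁻¹ * (u * x * u⁻¹) * u⁻¹⁻¹ = x by group] at this
  exact (Subgroup.mem_normalizer_iff.1 (this hg) g').1 hg'

/-- `U_{[i+1,j]}` is normal in `U_{[i,j]}` -/
theorem conj_left (h : Cl U a b) (h1 : a ≤ i) (h2 : k ≤ i + 1) (h3 : j ≤ b) (hg : g ∈ Iv U i j) (hg' : g' ∈ Iv U k j) :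
    g * g' * g⁻¹ ∈ Iv U k j := by
  by_cases c : k ≤ i
  · have := Iv_mono hg c le_rfl
    exact mul_mem (mul_mem this hg') (inv_mem this)
  · exact h.conj hg hg' (by omega)

/-- `U_{[i,j-1]}` is normal in `U_{[i,j]}` -/
theorem conj_right (h : Cl U a b) (h1 : a ≤ i) (h2 : j ≤ k + 1) (h3 : j ≤ b) (hg : g ∈ Iv U i j) (hg' : g' ∈ Iv U i k) :
    g * g' * g⁻¹ ∈ Iv U i k := by
  by_cases c : j ≤ k
  · have := Iv_mono hg le_rfl c
    exact mul_mem (mul_mem this hg') (inv_mem this)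
  · exact h.conj hg hg' (by omega)

theorem dec_left (h : Cl U a b) (h1 : a ≤ i) (h3 : j ≤ b) (hg : g ∈ Iv U i j) :
    ∃ u ∈ U i, ∃ g' ∈ Iv U (i + 1) j, g = u * g' := by
  by_cases hij : j < i
  · exact ⟨1, one_mem _, 1, one_mem _, by rw [Iv_empty hg hij, mul_one]⟩
  have hA : ∀ u ∈ U i, ∀ y ∈ Iv U (i + 1) j, u * y * u⁻¹ ∈ Iv U (i + 1) j := fun u hu y hy =>
    h.conj (i' := i) (j' := i) (mem_Iv hu le_rfl le_rfl) hy (by omega)
  let H : Subgroup A :=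
    { carrier := {x | ∃ u ∈ U i, ∃ y ∈ Iv U (i + 1) j, x = u * y}
      one_mem' := ⟨1, one_mem _, 1, one_mem _, by simp⟩
      mul_mem' := by
        rintro _ _ ⟨u, hu, y, hy, rfl⟩ ⟨u', hu', y', hy', rfl⟩
        exact ⟨u * u', mul_mem hu hu', _, mul_mem (hA _ (inv_mem hu') y hy) hy', by group⟩
      inv_mem' := by
        rintro _ ⟨u, hu, y, hy, rfl⟩
        exact ⟨u⁻¹, inv_mem hu, _, hA u hu _ (inv_mem hy), by group⟩ }
  have : Iv U i j ≤ H := by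
    refine Iv_le fun l l1 l2 v hv => ?_
    by_cases c : l = i
    · subst c
      exact ⟨v, hv, 1, one_mem _, by simp⟩
    · exact ⟨1, one_mem _, v, mem_Iv hv (by omega) l2, by simp⟩
  exact this hg

theorem dec_right (h : Cl U a b) (h1 : a ≤ i) (h3 : j ≤ b) (hg : g ∈ Iv U i j) :
    ∃ g' ∈ Iv U i (j - 1), ∃ u ∈ U j, g = g' * u := by
  by_cases hij : j < i
  · exact ⟨1, one_mem _, 1, one_mem _, by rw [Iv_empty hg hij, mul_one]⟩
  have hA : ∀ u ∈ U j, ∀ y ∈ Iv U i (j - 1), u * y * u⁻¹ ∈ Iv U i (j - 1) := fun u hu y hy =>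
    h.conj (i' := j) (j' := j) (mem_Iv hu le_rfl le_rfl) hy (by omega)
  let H : Subgroup A :=
    { carrier := {x | ∃ y ∈ Iv U i (j - 1), ∃ u ∈ U j, x = y * u}
      one_mem' := ⟨1, one_mem _, 1, one_mem _, by simp⟩
      mul_mem' := by
        rintro _ _ ⟨y, hy, u, hu, rfl⟩ ⟨y', hy', u', hu', rfl⟩
        exact ⟨_, mul_mem hy (hA u hu y' hy'), u * u', mul_mem hu hu', by group⟩
      inv_mem' := by
        rintro _ ⟨y, hy, u, hu, rfl⟩
        exact ⟨_, hA _ (inv_mem hu) _ (inv_mem hy), u⁻¹, inv_mem hu, by group⟩ }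
  have : Iv U i j ≤ H := by
    refine Iv_le fun l l1 l2 v hv => ?_
    by_cases c : l = j
    · subst c
      exact ⟨1, one_mem _, v, hv, by simp⟩
    · exact ⟨v, mem_Iv hv l1 (by omega), 1, one_mem _, by simp⟩
  exact this hg

theorem comm_left (h : Cl U a b) (h1 : a ≤ i) (h3 : j ≤ b) (hu : u ∈ U i) (hg : g ∈ Iv U (i + 1) j) :
    ⁅u, g⁆ ∈ Iv U (i + 1) (j - 1) := by
  by_cases c : j ≤ i
  · rw [Iv_empty hg (by omega)]
    simp
  obtain ⟨y, hy, v, hv, rfl⟩ := h.dec_right (by omega) h3 hg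
  rw [show ⁅u, y * v⁆ = u * y * u⁻¹ * ⁅u, v⁆ * y⁻¹ by simp only [commutatorElement_def]; group]
  exact mul_mem (mul_mem (h.conj (i' := i) (j' := i) (mem_Iv hu le_rfl le_rfl) hy (by omega))
    (h i j h1 (by omega) h3 u hu v hv)) (inv_mem hy)

theorem comm_right (h : Cl U a b) (h1 : a ≤ i) (h3 : j ≤ b) (hg : g ∈ Iv U i (j - 1)) (hv : v ∈ U j) :
    ⁅g, v⁆ ∈ Iv U (i + 1) (j - 1) := by
  by_cases c : j ≤ i
  · rw [Iv_empty hg (by omega)]
    simp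
  obtain ⟨u, hu, y, hy, rfl⟩ := h.dec_left h1 (by omega) hg
  rw [show ⁅u * y, v⁆ = u * (y * (v * y⁻¹ * v⁻¹)) * u⁻¹ * ⁅u, v⁆ by simp only [commutatorElement_def]; group]
  exact mul_mem (h.conj (i' := i) (j' := i) (mem_Iv hu le_rfl le_rfl) (mul_mem hy
    (h.conj (i' := j) (j' := j) (mem_Iv hv le_rfl le_rfl) (inv_mem hy) (by omega))) (by omega))
    (h i j h1 (by omega) h3 u hu v hv)

theorem dec (h : Cl U a b) (h1 : a ≤ i) (h3 : j ≤ b) (hg : g ∈ Iv U i j) (k : ℤ) :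
    ∃ x ∈ Iv U i k, ∃ y ∈ Iv U (k + 1) j, x ∈ Iv U i j ∧ y ∈ Iv U i j ∧ g = x * y := by
  by_cases c : k < i
  · exact ⟨1, one_mem _, g, Iv_mono hg (by omega) le_rfl, one_mem _, hg, (one_mul g).symm⟩
  by_cases c' : j ≤ k
  · exact ⟨g, Iv_mono hg le_rfl c', 1, one_mem _, hg, one_mem _, (mul_one g).symm⟩
  have key : ∀ d : ℕ, i - 1 + d ≤ j → ∃ x ∈ Iv U i (i - 1 + d), ∃ y ∈ Iv U (i - 1 + d + 1) j, g = x * y := by
    intro d
    induction d with
    | zero => exact fun _ => ⟨1, one_mem _, g, Iv_mono hg (by omega) le_rfl, (one_mul g).symm⟩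
    | succ d ih =>
      intro hd
      obtain ⟨x, hx, y, hy, rfl⟩ := ih (by omega)
      obtain ⟨u, hu, y', hy', rfl⟩ := h.dec_left (by omega) h3 hy
      exact ⟨x * u, mul_mem (Iv_mono hx le_rfl (by omega)) (mem_Iv hu (by omega) (by omega)), y',
        Iv_mono hy' (by omega) le_rfl, by group⟩
  obtain ⟨x, hx, y, hy, e⟩ := key (k - i + 1).toNat (by omega)
  exact ⟨x, Iv_mono hx le_rfl (by omega), y, Iv_mono hy (by omega) le_rfl, Iv_mono hx le_rfl (by omega),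
    Iv_mono hy (by omega) le_rfl, e⟩

end Cl

/-- it suffices to check a commutator relation on generators -/
theorem comm_of_gen (h1 : Cl U i (j - 1)) (h2 : Cl U (i + 1) j) {X Y : Set A} (hX : U i = Subgroup.closure X)
    (hY : U j = Subgroup.closure Y) (h : ∀ x ∈ X, ∀ y ∈ Y, ⁅x, y⁆ ∈ Iv U (i + 1) (j - 1)) (hu : u ∈ U i)
    (hv : v ∈ U j) : ⁅u, v⁆ ∈ Iv U (i + 1) (j - 1) := by
  have hA : ∀ u ∈ U i, ∀ y ∈ Iv U (i + 1) (j - 1), u * y * u⁻¹ ∈ Iv U (i + 1) (j - 1) := by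
    intro u hu y hy
    by_cases c : j - 1 < i + 1
    · rw [Iv_empty hy c]; simp
    · exact h1.conj (i' := i) (j' := i) (mem_Iv hu le_rfl le_rfl) hy (by omega)
  have hB : ∀ u ∈ U j, ∀ y ∈ Iv U (i + 1) (j - 1), u * y * u⁻¹ ∈ Iv U (i + 1) (j - 1) := by
    intro u hu y hy
    by_cases c : j - 1 < i + 1
    · rw [Iv_empty hy c]; simp
    · exact h2.conj (i' := j) (j' := j) (mem_Iv hu le_rfl le_rfl) hy (by omega)
  have h3 : ∀ x ∈ X, ∀ v ∈ Subgroup.closure Y, ⁅x, v⁆ ∈ Iv U (i + 1) (j - 1) := by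
    intro x hx v hv
    induction hv using Subgroup.closure_induction with
    | mem y hy => exact h x hx y hy
    | one => simp
    | mul y z hy hz ihy ihz =>
      rw [show ⁅x, y * z⁆ = ⁅x, y⁆ * (y * ⁅x, z⁆ * y⁻¹) by simp only [commutatorElement_def]; group]
      exact mul_mem ihy (hB y (hY ▸ hy) _ ihz)
    | inv y hy ihy =>
      rw [show ⁅x, y⁻¹⁆ = y⁻¹ * ⁅x, y⁆⁻¹ * y⁻¹⁻¹ by simp only [commutatorElement_def]; group]
      exact hB _ (inv_mem (hY ▸ hy)) _ (inv_mem ihy)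
  rw [hX] at hu
  induction hu using Subgroup.closure_induction with
  | mem x hx => exact h3 x hx v (hY ▸ hv)
  | one => simp
  | mul y z hy hz ihy ihz =>
    rw [show ⁅y * z, v⁆ = y * ⁅z, v⁆ * y⁻¹ * ⁅y, v⁆ by simp only [commutatorElement_def]; group]
    exact mul_mem (hA y (hX ▸ hy) _ ihz) ihy
  | inv y hy ihy =>
    rw [show ⁅y⁻¹, v⁆ = y⁻¹ * ⁅y, v⁆⁻¹ * y⁻¹⁻¹ by simp only [commutatorElement_def]; group]
    exact hA _ (inv_mem (hX ▸ hy)) _ (inv_mem ihy)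

/-- induction on the distance -/
theorem cl_of_step (h : ∀ i j, a ≤ i → i < j → j ≤ b → Cl U i (j - 1) → Cl U (i + 1) j →
    ∀ u ∈ U i, ∀ v ∈ U j, ⁅u, v⁆ ∈ Iv U (i + 1) (j - 1)) : Cl U a b := by
  have key : ∀ d : ℕ, ∀ i j, a ≤ i → j ≤ b → j - i ≤ d → Cl U i j := by
    intro d
    induction d with
    | zero => exact fun i j _ _ _ k l _ _ _ => by omega
    | succ d ih =>
      intro i j h1 h2 h3 k l h4 h5 h6
      exact h k l (by omega) h5 (by omega) (ih _ _ (by omega) (by omega) (by omega))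
        (ih _ _ (by omega) (by omega) (by omega))
  exact key (b - a).toNat a b le_rfl le_rfl (by omega)

theorem Iv_map {B : Type*} [Group B] {Δ : ℤ → Subgroup B} (f : B →* A)
    (hf : ∀ k, i ≤ k → k ≤ j → ∀ γ ∈ Δ k, f γ ∈ U k) {x : B} (hx : x ∈ Iv Δ i j) : f x ∈ Iv U i j := by
  have : Iv Δ i j ≤ (Iv U i j).comap f := Iv_le fun k h1 h2 γ hγ => mem_Iv (hf k h1 h2 γ hγ) h1 h2
  exact this hx

theorem Iv_lift {B : Type*} [Group B] {Δ : ℤ → Subgroup B} (f : B →* A)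
    (hf : ∀ k, i ≤ k → k ≤ j → ∀ u ∈ U k, ∃ γ ∈ Δ k, f γ = u) (hg : g ∈ Iv U i j) : ∃ x ∈ Iv Δ i j, f x = g := by
  have : Iv U i j ≤ (Iv Δ i j).map f := Iv_le fun k h1 h2 u hu => by
    obtain ⟨γ, hγ, e⟩ := hf k h1 h2 u hu
    exact ⟨γ, mem_Iv hγ h1 h2, e⟩
  exact this hg

/-- stripping trivial outer components -/
theorem Cl.strip (h : Cl U a b) (hg : g ∈ Iv U a b)
    (hl : ∀ c, a ≤ c → c < i → c ≤ b → ∀ γ ∈ U c, ∀ y ∈ Iv U (c + 1) b, g = γ * y → γ = 1)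
    (hr : ∀ c, a ≤ c → j < c → c ≤ b → ∀ γ ∈ U c, ∀ y ∈ Iv U a (c - 1), g = y * γ → γ = 1) (h1 : a ≤ i)
    (h2 : j ≤ b) : g ∈ Iv U i j := by
  have k1 : ∀ d : ℕ, a + d ≤ i → g ∈ Iv U (a + d) b := by
    intro d
    induction d with
    | zero => exact fun _ => Iv_mono hg (by omega) le_rfl
    | succ d ih =>
      intro hd
      have := ih (by omega)
      by_cases c : b < a + d
      · rw [Iv_empty this c]; exact one_mem _
      obtain ⟨u, hu, y, hy, e⟩ := h.dec_left (by omega) le_rfl this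
      rw [e, hl _ (by omega) (by omega) (by omega) u hu y hy e, one_mul]
      exact Iv_mono hy (by omega) le_rfl
  have k2 : ∀ d : ℕ, j ≤ b - d → g ∈ Iv U i (b - d) := by
    intro d
    induction d with
    | zero => exact fun _ => Iv_mono (k1 (i - a).toNat (by omega)) (by omega) (by omega)
    | succ d ih =>
      intro hd
      have := ih (by omega)
      by_cases c : b - d < i
      · rw [Iv_empty this c]; exact one_mem _
      obtain ⟨y, hy, u, hu, e⟩ := h.dec_right h1 (by omega) this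
      rw [e, hr _ (by omega) (by omega) (by omega) u hu y (Iv_mono hy h1 le_rfl) e, mul_one]
      exact Iv_mono hy le_rfl (by omega)
  exact Iv_mono (k2 (b - j).toNat (by omega)) le_rfl (by omega)

end

namespace Par
variable {A A' F : Type*} [Group A] [Group A'] [AddCommGroup F] {H : Subgroup A} {H' : Subgroup A'} {x : F → A}
  {x' : F → A'}

theorem zero (h : Par H F x) : x 0 = 1 := by
  have := h.add 0 0
  rw [add_zero] at this
  exact left_eq_mul.1 this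

theorem neg (h : Par H F x) (t : F) : x (-t) = (x t)⁻¹ := by
  rw [eq_inv_iff_mul_eq_one, ← h.add, neg_add_cancel, h.zero]

theorem eq_one (h : Par H F x) {t : F} : x t = 1 ↔ t = 0 := by
  rw [← h.zero]
  exact h.inj.eq_iff

theorem mem' (h : Par H F x) (t : F) : x t ∈ H := by
  exact (h.mem _).2 ⟨t, rfl⟩

theorem commute (h : Par H F x) (s t : F) : Commute (x s) (x t) := by
  rw [Commute, SemiconjBy, ← h.add, ← h.add, add_comm]

theorem card (h : Par H F x) : Nat.card H = Nat.card F := by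
  refine (Nat.card_congr (Equiv.ofBijective (fun t : F => (⟨x t, h.mem' t⟩ : H)) ⟨fun s t e => ?_, fun u => ?_⟩)).symm
  · exact h.inj (congrArg Subtype.val e)
  · obtain ⟨t, e⟩ := (h.mem u).1 u.2
    exact ⟨t, Subtype.ext e.symm⟩

theorem comp {F' : Type*} [AddCommGroup F'] (h : Par H F x) (e : F' ≃+ F) : Par H F' (x ∘ e) := by
  refine ⟨fun s t => by simp [h.add], h.inj.comp e.injective, fun u => ?_⟩
  rw [h.mem]
  exact ⟨fun ⟨t, ht⟩ => ⟨e.symm t, by simpa using ht⟩, fun ⟨t, ht⟩ => ⟨e t, ht⟩⟩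

theorem conj {K : Subgroup A} (h : Par H F x) {g : A} (h1 : ∀ u, g * u * g⁻¹ ∈ K ↔ u ∈ H) :
    Par K F fun t => g * x t * g⁻¹ := by
  refine ⟨fun s t => by rw [h.add]; group, fun s t e => h.inj (by simpa using e), fun u => ?_⟩
  constructor
  · intro hu
    obtain ⟨t, ht⟩ := (h.mem (g⁻¹ * u * g)).1 ((h1 _).1 (by simpa [mul_assoc] using hu))
    exact ⟨t, by rw [← ht]; group⟩
  · rintro ⟨t, rfl⟩
    exact (h1 _).2 (h.mem' t)

/-- the graph of the isomorphism `x t ↦ x' t` -/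
theorem exists_gr (h : Par H F x) (h' : Par H' F x') :
    ∃ Γ : Subgroup (A × A'), Gr H H' Γ ∧ ∀ p, p ∈ Γ ↔ ∃ t, p = (x t, x' t) := by
  let Γ : Subgroup (A × A') :=
    { carrier := {p | ∃ t, p = (x t, x' t)}
      one_mem' := ⟨0, by rw [h.zero, h'.zero]; rfl⟩
      mul_mem' := by
        rintro _ _ ⟨s, rfl⟩ ⟨t, rfl⟩
        exact ⟨s + t, by rw [h.add, h'.add]; rfl⟩
      inv_mem' := by
        rintro _ ⟨s, rfl⟩
        exact ⟨-s, by rw [h.neg, h'.neg]; rfl⟩ }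
  refine ⟨Γ, ⟨?_, fun u hu => ?_, fun u hu => ?_, ?_, ?_⟩, fun p => Iff.rfl⟩
  · rintro _ ⟨t, rfl⟩
    exact ⟨h.mem' t, h'.mem' t⟩
  · obtain ⟨t, rfl⟩ := (h.mem u).1 hu
    exact ⟨_, t, rfl⟩
  · obtain ⟨t, rfl⟩ := (h'.mem u).1 hu
    exact ⟨_, t, rfl⟩
  · rintro u ⟨t, e⟩
    obtain ⟨e1, e2⟩ := Prod.mk.inj e
    rw [e2, h.eq_one.1 e1.symm, h'.zero]
  · rintro u ⟨t, e⟩
    obtain ⟨e1, e2⟩ := Prod.mk.inj e
    rw [e1, h'.eq_one.1 e2.symm, h.zero]

end Par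

namespace MS
variable {n : ℕ} {A : Type*} [Group A] (M : MS n A) {a b c i j k l : ℤ} {u u' v g g' m : A}

theorem per_eq {α : Type*} {f : ℤ → α} {N : ℤ} (h : ∀ i, f (i + N) = f i) (e : N ∣ i - j) : f i = f j := by
  obtain ⟨k, hk⟩ := e
  have : Function.Periodic f N := h
  rw [show i = j + k * N by rw [mul_comm]; omega]
  exact this.int_mul k j

theorem U_eq (e : (2 * n : ℤ) ∣ i - j) : M.U i = M.U j := by
  exact per_eq M.per e

theorem T_eq (e : (2 * n : ℤ) ∣ i - j) : M.T i = M.T j := by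
  exact per_eq (fun i => funext fun m => propext (M.T_per i m)) e

theorem R_eq (e : (2 * n : ℤ) ∣ i - j) : M.R i = M.R j := by
  exact per_eq (fun i => funext fun m => propext (M.R_per i m)) e

theorem I_eq (e : (2 * n : ℤ) ∣ c) (h1 : k = i + c) (h2 : l = j + c) : M.I k l = M.I i j := by
  subst h1 h2
  rw [I, I, ← Iv_shift]
  congr 1
  funext k
  exact M.U_eq (by simpa using e)

theorem cl (h : b < a + n) : Cl M.U a b := by
  intro i j h1 h2 h3 u hu v hv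
  exact M.comm h2 (by omega) hu hv

variable {M}

theorem T_mem (hm : M.T c m) (hu : u ∈ M.U i) (e : (2 * n : ℤ) ∣ i + c - j) : m * u * m⁻¹ ∈ M.U j := by
  rw [← M.U_eq e]
  exact M.T_conj hm hu

theorem R_mem (hm : M.R c m) (hu : u ∈ M.U i) (e : (2 * n : ℤ) ∣ c - i - j) : m * u * m⁻¹ ∈ M.U j := by
  rw [← M.U_eq e]
  exact M.R_conj hm hu

theorem T_mem_iff (hm : M.T c m) (e : (2 * n : ℤ) ∣ i + c - j) : m * u * m⁻¹ ∈ M.U j ↔ u ∈ M.U i := by
  refine ⟨fun h => ?_, fun h => T_mem hm h e⟩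
  have := T_mem (M.T_inv hm) h (j := i) (by rw [show j + -c - i = -(i + c - j) by ring]; exact e.neg_right)
  simpa [mul_assoc] using this

theorem R_mem_iff (hm : M.R c m) (e : (2 * n : ℤ) ∣ c - i - j) : m * u * m⁻¹ ∈ M.U j ↔ u ∈ M.U i := by
  refine ⟨fun h => ?_, fun h => R_mem hm h e⟩
  have := R_mem (M.R_inv hm) h (j := i) (by rw [show c - j - i = c - i - j by ring]; exact e)
  simpa [mul_assoc] using this

theorem T_mem_I (hm : M.T c m) (hg : g ∈ M.I i j) : m * g * m⁻¹ ∈ M.I (i + c) (j + c) := by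
  exact Iv_conj (fun k h1 h2 u hu => mem_Iv (M.T_conj hm hu) (by omega) (by omega)) hg

theorem R_mem_I (hm : M.R c m) (hg : g ∈ M.I i j) : m * g * m⁻¹ ∈ M.I (c - j) (c - i) := by
  exact Iv_conj (fun k h1 h2 u hu => mem_Iv (M.R_conj hm hu) (by omega) (by omega)) hg

theorem commute_adj (hu : u ∈ M.U i) (hv : v ∈ M.U j) (e : j = i + 1 ∨ j = i - 1) : Commute u v := by
  have := M.three
  rcases e with e | e
  · exact commutatorElement_eq_one_iff_commute.1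
      (Iv_empty (M.comm (by omega) (by omega) hu hv) (by omega))
  · exact (commutatorElement_eq_one_iff_commute.1
      (Iv_empty (M.comm (by omega) (by omega) hv hu) (by omega))).symm

theorem comm2 (hu : u ∈ M.U i) (hv : v ∈ M.U j) (e : j = k + 1 ∧ i = k - 1 ∨ j = k - 1 ∧ i = k + 1) : ⁅u, v⁆ ∈ M.U k := by
  have := M.three
  rcases e with e | e
  · exact Iv_single (M.comm (by omega) (by omega) hu hv) (by omega) (by omega)
  · rw [← inv_mem_iff, commutatorElement_inv]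
    exact Iv_single (M.comm (by omega) (by omega) hv hu) (by omega) (by omega)

theorem uniq_left (hu : u ∈ M.U i) (hu' : u' ∈ M.U i) (hg : g ∈ M.I k j) (hg' : g' ∈ M.I k j) (h1 : i < k)
    (h2 : j < i + n) (e : u * g = u' * g') : u = u' ∧ g = g' := by
  have h3 : u'⁻¹ * u = 1 := by
    refine M.sep (mul_mem (inv_mem hu') hu) ?_
    rw [show u'⁻¹ * u = g' * g⁻¹ by rw [inv_mul_eq_iff_eq_mul, ← mul_assoc, ← e]; group]
    exact Iv_mono (mul_mem hg' (inv_mem hg)) (by omega) (by omega)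
  obtain rfl := inv_mul_eq_one.1 h3
  exact ⟨rfl, mul_left_cancel e⟩

theorem uniq_right (hu : u ∈ M.U j) (hu' : u' ∈ M.U j) (hg : g ∈ M.I i k) (hg' : g' ∈ M.I i k) (h1 : k < j)
    (h2 : j < i + n) (e : g * u = g' * u') : g = g' ∧ u = u' := by
  have h3 : u * u'⁻¹ = 1 := by
    refine M.sep' (mul_mem hu (inv_mem hu')) ?_
    rw [show u * u'⁻¹ = g⁻¹ * g' by rw [mul_inv_eq_iff_eq_mul, mul_assoc, ← e]; group]
    exact Iv_mono (mul_mem (inv_mem hg) hg') (by omega) (by omega)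
  obtain rfl := mul_inv_eq_one.1 h3
  exact ⟨mul_right_cancel e, rfl⟩

/-- `U_{[i,j]} ∩ U_{[k,l]} = U_{[k,j]}` -/
theorem inter (h1 : g ∈ M.I i j) (h2 : g ∈ M.I k l) (h3 : i ≤ k) (h4 : j ≤ l) (h5 : l < i + n) : g ∈ M.I k j := by
  refine (M.cl (a := i) (b := j) (by omega)).strip h1 (fun c c1 c2 c3 γ hγ y hy e => ?_)
    (fun c _ _ _ => by omega) h3 le_rfl
  exact (uniq_left (k := c + 1) (j := l) hγ (one_mem _) (Iv_mono hy le_rfl h4) (Iv_mono h2 (by omega) le_rfl)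
    (by omega) (by omega) (by rw [← e, one_mul])).1

theorem eq_one_of_ne (h1 : g ∈ M.U i) (h2 : g ∈ M.U j) (h3 : i < j) (h4 : j < i + n) : g = 1 := by
  exact M.sep h1 (mem_Iv h2 (by omega) (by omega))

theorem prod_mem_I {d : ℕ} {f : ℕ → A} (h : ∀ k < d, f k ∈ M.U (i + k)) :
    ((List.range d).map f).prod ∈ M.I i (i + d - 1) := by
  refine Subgroup.list_prod_mem _ fun x hx => ?_
  obtain ⟨k, hk, rfl⟩ := List.mem_map.1 hx
  have := List.mem_range.1 hk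
  exact mem_Iv (h k this) (by omega) (by omega)

/-- uniqueness of the normal form: `f k, f' k ∈ U (i + k)` -/
theorem uniq_prod {d : ℕ} (hd : d ≤ n) {f f' : ℕ → A} (h : ∀ k < d, f k ∈ M.U (i + k)) (h' : ∀ k < d, f' k ∈ M.U (i + k))
    (e : ((List.range d).map f).prod = ((List.range d).map f').prod) : ∀ k < d, f k = f' k := by
  induction d with
  | zero => exact fun k hk => by omega
  | succ d ih =>
    simp only [List.range_succ, List.map_append, List.prod_append, List.map_cons, List.map_nil, List.prod_cons,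
      List.prod_nil, mul_one] at e
    obtain ⟨e1, e2⟩ := uniq_right (h d (by omega)) (h' d (by omega))
      (prod_mem_I fun k hk => h k (by omega)) (prod_mem_I fun k hk => h' k (by omega)) (by omega) (by omega) e
    intro k hk
    by_cases c : k = d
    · rw [c, e2]
    · exact ih (by omega) (fun k hk => h k (by omega)) (fun k hk => h' k (by omega)) e1 k (by omega)

theorem strip_left {B : Type*} [Group B] {Δ : ℤ → Subgroup B} (f : B →* A)
    (hf : ∀ k, a ≤ k → k ≤ b → ∀ γ ∈ Δ k, f γ ∈ M.U k) (hn : b < a + n) {γ y : B} (h : f (γ * y) ∈ M.I i j)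
    (h2 : j ≤ b) (c1 : a ≤ c) (c2 : c < i) (c3 : c ≤ b) (hγ : γ ∈ Δ c) (hy : y ∈ Iv Δ (c + 1) b) : f γ = 1 :=
  (uniq_left (k := c + 1) (j := b) (hf c c1 c3 γ hγ) (one_mem _)
    (Iv_map f (fun k k1 k2 => hf k (by omega) k2) hy) (Iv_mono h (by omega) h2)
    (by omega) (by omega) (by rw [map_mul, one_mul])).1

theorem strip_right {B : Type*} [Group B] {Δ : ℤ → Subgroup B} (f : B →* A)
    (hf : ∀ k, a ≤ k → k ≤ b → ∀ γ ∈ Δ k, f γ ∈ M.U k) (hn : b < a + n) {γ y : B} (h : f (y * γ) ∈ M.I i j)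
    (h1 : a ≤ i) (c1 : a ≤ c) (c2 : j < c) (c3 : c ≤ b) (hγ : γ ∈ Δ c) (hy : y ∈ Iv Δ a (c - 1)) : f γ = 1 :=
  (uniq_right (k := c - 1) (i := a) (hf c c1 c3 γ hγ) (one_mem _)
    (Iv_map f (fun k k1 k2 => hf k k1 (by omega)) hy) (Iv_mono h h1 (by omega))
    (by omega) (by omega) (by rw [map_mul, mul_one])).2

theorem glue {A' : Type*} [Group A'] {M' : MS n A'} (h : Link n M.U M'.U) :
    ∃ Γ : Subgroup (A × A'), Gr (M.I 1 n) (M'.I 1 n) Γ ∧
      ∀ g g', (g, g') ∈ Γ → ∀ i j : ℤ, 1 ≤ i → j ≤ n → (g ∈ M.I i j ↔ g' ∈ M'.I i j) := by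
  obtain ⟨Δ, hΔ, hc⟩ := h
  have f1 : ∀ k : ℤ, 1 ≤ k → k ≤ n → ∀ γ ∈ Δ k, MonoidHom.fst A A' γ ∈ M.U k :=
    fun k k1 k2 γ hγ => ((hΔ k k1 k2).le hγ).1
  have f2 : ∀ k : ℤ, 1 ≤ k → k ≤ n → ∀ γ ∈ Δ k, MonoidHom.snd A A' γ ∈ M'.U k :=
    fun k k1 k2 γ hγ => ((hΔ k k1 k2).le hγ).2
  have o1 : ∀ k : ℤ, 1 ≤ k → k ≤ n → ∀ γ ∈ Δ k, γ.1 = 1 → γ = 1 := by
    rintro k k1 k2 ⟨γ, γ'⟩ hγ (rfl : γ = 1)
    rw [(hΔ k k1 k2).inj_left _ hγ]; rfl
  have o2 : ∀ k : ℤ, 1 ≤ k → k ≤ n → ∀ γ ∈ Δ k, γ.2 = 1 → γ = 1 := by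
    rintro k k1 k2 ⟨γ, γ'⟩ hγ (rfl : γ' = 1)
    rw [(hΔ k k1 k2).inj_right _ hγ]; rfl
  have s1 : ∀ x ∈ Iv Δ 1 n, ∀ i j : ℤ, 1 ≤ i → j ≤ n → x.1 ∈ M.I i j → x ∈ Iv Δ i j := by
    intro x hx i j h1 h2 h3
    refine hc.strip hx (fun c c1 c2 c3 γ hγ y hy e => o1 c c1 c3 γ hγ ?_)
      (fun c c1 c2 c3 γ hγ y hy e => o1 c c1 c3 γ hγ ?_) h1 h2
    · exact strip_left (MonoidHom.fst A A') f1 (by omega) (e ▸ h3) h2 c1 c2 c3 hγ hy
    · exact strip_right (MonoidHom.fst A A') f1 (by omega) (e ▸ h3) h1 c1 c2 c3 hγ hy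
  have s2 : ∀ x ∈ Iv Δ 1 n, ∀ i j : ℤ, 1 ≤ i → j ≤ n → x.2 ∈ M'.I i j → x ∈ Iv Δ i j := by
    intro x hx i j h1 h2 h3
    refine hc.strip hx (fun c c1 c2 c3 γ hγ y hy e => o2 c c1 c3 γ hγ ?_)
      (fun c c1 c2 c3 γ hγ y hy e => o2 c c1 c3 γ hγ ?_) h1 h2
    · exact strip_left (MonoidHom.snd A A') f2 (by omega) (e ▸ h3) h2 c1 c2 c3 hγ hy
    · exact strip_right (MonoidHom.snd A A') f2 (by omega) (e ▸ h3) h1 c1 c2 c3 hγ hy
  refine ⟨Iv Δ 1 n, ⟨fun x hx => ⟨Iv_map _ f1 hx, Iv_map _ f2 hx⟩, fun u hu => ?_, fun u hu => ?_,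
    fun u hu => ?_, fun u hu => ?_⟩, fun g g' hg i j h1 h2 => ⟨fun h3 => ?_, fun h3 => ?_⟩⟩
  · obtain ⟨x, hx, rfl⟩ := Iv_lift (Δ := Δ) (MonoidHom.fst A A') (fun k k1 k2 u hu => by
      obtain ⟨u', h⟩ := (hΔ k k1 k2).left u hu
      exact ⟨_, h, rfl⟩) hu
    exact ⟨x.2, hx⟩
  · obtain ⟨x, hx, rfl⟩ := Iv_lift (Δ := Δ) (MonoidHom.snd A A') (fun k k1 k2 u hu => by
      obtain ⟨u', h⟩ := (hΔ k k1 k2).right u hu
      exact ⟨_, h, rfl⟩) hu
    exact ⟨x.1, hx⟩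
  · exact congrArg Prod.snd (Iv_empty (s1 _ hu 1 0 le_rfl (by omega) (one_mem _)) (by omega))
  · exact congrArg Prod.fst (Iv_empty (s2 _ hu 1 0 le_rfl (by omega) (one_mem _)) (by omega))
  · exact Iv_map (MonoidHom.snd A A') (fun k k1 k2 => f2 k (by omega) (by omega)) (s1 _ hg i j h1 h2 h3)
  · exact Iv_map (MonoidHom.fst A A') (fun k k1 k2 => f1 k (by omega) (by omega)) (s2 _ hg i j h1 h2 h3)

/-- components in a family of subgroups of `U k × U' k` -/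
theorem mem_Iv_of_prod {A' : Type*} [Group A'] {M' : MS n A'} {Δ : ℤ → Subgroup (A × A')}
    (h : ∀ k, Δ k ≤ (M.U k).prod (M'.U k)) (hc : Cl Δ a b) (hn : b < a + n) {x : A × A'} (hx : x ∈ Iv Δ a b)
    (h1 : a ≤ i) (h2 : j ≤ b) (h3 : x.1 ∈ M.I i j) (h4 : x.2 ∈ M'.I i j) : x ∈ Iv Δ i j := by
  have f1 : ∀ k : ℤ, a ≤ k → k ≤ b → ∀ γ ∈ Δ k, MonoidHom.fst A A' γ ∈ M.U k := fun k _ _ γ hγ => (h k hγ).1
  have f2 : ∀ k : ℤ, a ≤ k → k ≤ b → ∀ γ ∈ Δ k, MonoidHom.snd A A' γ ∈ M'.U k := fun k _ _ γ hγ => (h k hγ).2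
  refine hc.strip hx (fun c c1 c2 c3 γ hγ y hy e => Prod.ext ?_ ?_)
    (fun c c1 c2 c3 γ hγ y hy e => Prod.ext ?_ ?_) h1 h2
  · exact strip_left (MonoidHom.fst A A') f1 hn (e ▸ h3) h2 c1 c2 c3 hγ hy
  · exact strip_left (MonoidHom.snd A A') f2 hn (e ▸ h4) h2 c1 c2 c3 hγ hy
  · exact strip_right (MonoidHom.fst A A') f1 hn (e ▸ h3) h1 c1 c2 c3 hγ hy
  · exact strip_right (MonoidHom.snd A A') f2 hn (e ▸ h4) h1 c1 c2 c3 hγ hy

end MS

end CfsgLib.MP
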