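import Cfsg.Agent.Lib.FS.Defs
import Cfsg.Agent.Lib.Tits.Defs

/-!
# Finite Moufang polygons: definitions (project MP, see `plans/MP.md`)
-/

set_option autoImplicit false

namespace CfsgLib.MP
open Cfsg CfsgLib.Tits MulAction
open scoped commutatorElement

universe u

/-- the group generated by the `U k`, `i ≤ k ≤ j` -/
def Iv {A : Type*} [Group A] (U : ℤ → Subgroup A) (i j : ℤ) : Subgroup A := ⨆ k, ⨆ _ : i ≤ k ∧ k ≤ j, U k

/-- the commutator relations hold between the indices `a` and `b` -/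
def Cl {A : Type*} [Group A] (U : ℤ → Subgroup A) (a b : ℤ) : Prop :=
  ∀ i j : ℤ, a ≤ i → i < j → j ≤ b → ∀ u ∈ U i, ∀ v ∈ U j, ⁅u, v⁆ ∈ Iv U (i + 1) (j - 1)

/-- the groups `U₊` are isomorphic by an isomorphism that preserves the root groups -/
def Link (n : ℕ) {A A' : Type*} [Group A] [Group A'] (U : ℤ → Subgroup A) (U' : ℤ → Subgroup A') : Prop :=
  ∃ Γ : ℤ → Subgroup (A × A'), (∀ i : ℤ, 1 ≤ i → i ≤ n → Gr (U i) (U' i) (Γ i)) ∧ Cl Γ 1 n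

/-- root groups of an apartment of a Moufang `n`-gon; `T c m`: `m` acts on the roots as `i ↦ i + c`;
`R c m`: `m` acts as `i ↦ c - i` -/
structure MS (n : ℕ) (A : Type*) [Group A] where
  U : ℤ → Subgroup A
  T : ℤ → A → Prop
  R : ℤ → A → Prop
  three : 3 ≤ n
  per : ∀ i, U (i + 2 * n) = U i
  T_per : ∀ c m, T (c + 2 * n) m ↔ T c m
  R_per : ∀ c m, R (c + 2 * n) m ↔ R c m
  T_one : T 0 1
  T_T : ∀ {c d m m'}, T c m → T d m' → T (c + d) (m * m')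
  T_R : ∀ {c d m m'}, T c m → R d m' → R (c + d) (m * m')
  R_T : ∀ {c d m m'}, R c m → T d m' → R (c - d) (m * m')
  R_R : ∀ {c d m m'}, R c m → R d m' → T (c - d) (m * m')
  T_inv : ∀ {c m}, T c m → T (-c) m⁻¹
  R_inv : ∀ {c m}, R c m → R c m⁻¹
  T_conj : ∀ {c m i u}, T c m → u ∈ U i → m * u * m⁻¹ ∈ U (i + c)
  R_conj : ∀ {c m i u}, R c m → u ∈ U i → m * u * m⁻¹ ∈ U (c - i)
  nontriv : ∀ i, U i ≠ ⊥
  mu_ex : ∀ {i u}, u ∈ U i → u ≠ 1 → ∃ p ∈ U (i + n), ∃ q ∈ U (i + n), R (2 * i + n) (p * u * q)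
  mu_uniq : ∀ {i u p q p' q'}, u ∈ U i → u ≠ 1 → p ∈ U (i + n) → q ∈ U (i + n) → p' ∈ U (i + n) → q' ∈ U (i + n) →
    R (2 * i + n) (p * u * q) → R (2 * i + n) (p' * u * q') → p = p' ∧ q = q'
  comm : ∀ {i j : ℤ} {u v}, i < j → j < i + n → u ∈ U i → v ∈ U j → ⁅u, v⁆ ∈ Iv U (i + 1) (j - 1)
  sep : ∀ {i u}, u ∈ U i → u ∈ Iv U (i + 1) (i + n - 1) → u = 1
  sep' : ∀ {i u}, u ∈ U i → u ∈ Iv U (i - n + 1) (i - 1) → u = 1

theorem Iv_shift {A : Type*} [Group A] (U : ℤ → Subgroup A) (c i j : ℤ) :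
    Iv (fun k => U (k + c)) i j = Iv U (i + c) (j + c) :=
  le_antisymm (iSup₂_le fun k hk => le_iSup₂_of_le (f := fun k (_ : i + c ≤ k ∧ k ≤ j + c) => U k) (k + c) (by omega) le_rfl)
    (iSup₂_le fun k hk => le_iSup₂_of_le (f := fun k (_ : i ≤ k ∧ k ≤ j) => U (k + c)) (k - c) (by omega) (by simp))

theorem Iv_rev {A : Type*} [Group A] (U : ℤ → Subgroup A) (c i j : ℤ) :
    Iv (fun k => U (c - k)) i j = Iv U (c - j) (c - i) :=
  le_antisymm (iSup₂_le fun k hk => le_iSup₂_of_le (f := fun k (_ : c - j ≤ k ∧ k ≤ c - i) => U k) (c - k) (by omega) le_rfl)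
    (iSup₂_le fun k hk => le_iSup₂_of_le (f := fun k (_ : i ≤ k ∧ k ≤ j) => U (c - k)) (c - k) (by omega) (by simp))

namespace MS
variable {n : ℕ} {A : Type*} [Group A] (M : MS n A)

/-- the group `U_{[i,j]}` -/
abbrev I (i j : ℤ) : Subgroup A := Iv M.U i j

/-- renumbering `i ↦ i + c` -/
def shift (c : ℤ) : MS n A where
  U i := M.U (i + c)
  T := M.T
  R d := M.R (d + 2 * c)
  three := M.three
  per i := by rw [add_right_comm, M.per]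
  T_per := M.T_per
  R_per d m := by rw [add_right_comm, M.R_per]
  T_one := M.T_one
  T_T := M.T_T
  T_R h h' := by simpa only [add_assoc] using M.T_R h h'
  R_T h h' := by simpa only [add_sub_right_comm] using M.R_T h h'
  R_R h h' := by simpa only [add_sub_add_right_eq_sub] using M.R_R h h'
  T_inv := M.T_inv
  R_inv := M.R_inv
  T_conj h hu := by simpa only [add_right_comm] using M.T_conj h hu
  R_conj h hu := by convert M.R_conj h hu using 2; ring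
  nontriv i := M.nontriv _
  mu_ex {i u} hu h := by
    rw [add_right_comm, show 2 * i + n + 2 * c = 2 * (i + c) + n by ring]
    exact M.mu_ex hu h
  mu_uniq {i u p q p' q'} := by
    rw [add_right_comm, show 2 * i + n + 2 * c = 2 * (i + c) + n by ring]
    exact M.mu_uniq
  comm {i j u v} h1 h2 hu hv := by
    rw [Iv_shift]
    convert M.comm (i := i + c) (j := j + c) (by omega) (by omega) hu hv using 2 <;> ring
  sep {i u} hu h := M.sep hu (by rw [Iv_shift] at h; convert h using 2 <;> ring)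
  sep' {i u} hu h := M.sep' hu (by rw [Iv_shift] at h; convert h using 2 <;> ring)

/-- renumbering `i ↦ c - i` -/
def rev (c : ℤ) : MS n A where
  U i := M.U (c - i)
  T d := M.T (-d)
  R d := M.R (2 * c - d)
  three := M.three
  per i := by rw [← M.per]; congr 1; ring
  T_per d m := by rw [← M.T_per]; ring_nf
  R_per d m := by rw [← M.R_per]; ring_nf
  T_one := M.T_one
  T_T h h' := by simpa only [neg_add] using M.T_T h h'
  T_R h h' := by convert M.T_R h h' using 1; ring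
  R_T h h' := by convert M.R_T h h' using 1; ring
  R_R h h' := by convert M.R_R h h' using 1; ring
  T_inv := M.T_inv
  R_inv := M.R_inv
  T_conj h hu := by convert M.T_conj h hu using 2; ring
  R_conj h hu := by convert M.R_conj h hu using 2; ring
  nontriv i := M.nontriv _
  mu_ex {i u} hu h := by
    rw [← M.per, show c - (i + n) + 2 * n = c - i + n by ring]
    simp only [← M.R_per (2 * c - (2 * i + n)), show 2 * c - (2 * i + n) + 2 * n = 2 * (c - i) + n by ring]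
    exact M.mu_ex hu h
  mu_uniq {i u p q p' q'} := by
    rw [← M.per (c - (i + n)), show c - (i + n) + 2 * n = c - i + n by ring]
    simp only [← M.R_per (2 * c - (2 * i + n)), show 2 * c - (2 * i + n) + 2 * n = 2 * (c - i) + n by ring]
    exact M.mu_uniq
  comm {i j u v} h1 h2 hu hv := by
    rw [Iv_rev, ← inv_mem_iff, commutatorElement_inv]
    convert M.comm (i := c - j) (j := c - i) (by omega) (by omega) hv hu using 2 <;> ring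
  sep {i u} hu h := M.sep' hu (by rw [Iv_rev] at h; convert h using 2 <;> ring)
  sep' {i u} hu h := M.sep hu (by rw [Iv_rev] at h; convert h using 2 <;> ring)

/-- `μ(u) = p u q` -/
def Mu (i : ℤ) (u p q : A) : Prop :=
  u ∈ M.U i ∧ u ≠ 1 ∧ p ∈ M.U (i + n) ∧ q ∈ M.U (i + n) ∧ M.R (2 * i + n) (p * u * q)

open Classical in
/-- `κ(u)` -/
noncomputable def ka (i : ℤ) (u : A) : A := if h : ∃ x : A × A, M.Mu i u x.1 x.2 then h.choose.1 else 1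

open Classical in
/-- `λ(u)` -/
noncomputable def la (i : ℤ) (u : A) : A := if h : ∃ x : A × A, M.Mu i u x.1 x.2 then h.choose.2 else 1

/-- `μ(u) = κ(u) u λ(u)` -/
noncomputable def mu (i : ℤ) (u : A) : A := M.ka i u * u * M.la i u

open Classical in
/-- conjugation by `μ(u)`, and `1` for `u = 1` -/
noncomputable def ph (i : ℤ) (u v : A) : A := if u = 1 then 1 else M.mu i u * v * (M.mu i u)⁻¹

/-- the sequence attached to a pair of elements of `U 1`, `U n` -/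
structure Seq (a : ℤ → A) : Prop where
  mu : ∀ i : ℤ, M.Mu i (a i) (a (i - n)) (a (i + n))
  step : ∀ i : ℤ, a (i + 1) = (M.mu i (a i))⁻¹ * a (i + n - 1) * M.mu i (a i)
  rel : ∀ i : ℤ, (a i)⁻¹ * a (i + n - 1) * a i = ((List.range (n - 1)).map fun k : ℕ => a (i + 1 + k)).prod

/-- `Y ≤ U i` and `Y' ≤ U (i + n)` act additively between the sections `V / V₀` and `V' / V₀'` -/
structure QRD (i : ℤ) (Y Y' V V₀ V' V₀' : Subgroup A) : Prop where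
  le : Y ≤ M.U i
  le' : Y' ≤ M.U (i + n)
  la_mem : ∀ u ∈ Y, M.la i u ∈ Y'
  la_mem' : ∀ u ∈ Y', M.la (i + n) u ∈ Y
  conjY : ∀ u ∈ Y, (∀ y ∈ Y, M.ph i u y ∈ Y') ∧ ∀ y ∈ Y', M.ph i u y ∈ Y
  lt : V₀ < V
  le₀ : V₀' ≤ V'
  comm : ∀ a ∈ V, ∀ b ∈ V, ⁅a, b⁆ ∈ V₀
  comm' : ∀ a ∈ V', ∀ b ∈ V', ⁅a, b⁆ ∈ V₀'
  conj : ∀ u ∈ Y, (∀ v ∈ V, M.ph i u v ∈ V') ∧ (∀ v ∈ V₀, M.ph i u v ∈ V₀') ∧ (∀ v ∈ V', M.ph i u v ∈ V) ∧
    ∀ v ∈ V₀', M.ph i u v ∈ V₀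
  add : ∀ u ∈ Y, ∀ u' ∈ Y, ∀ v ∈ V, (M.ph i (u * u') v)⁻¹ * (M.ph i u v * M.ph i u' v) ∈ V₀'
  add' : ∀ u ∈ Y', ∀ u' ∈ Y', ∀ v ∈ V',
    (M.ph (i + n) (u * u') v)⁻¹ * (M.ph (i + n) u v * M.ph (i + n) u' v) ∈ V₀

end MS

/-- an isomorphism of the additive group `F` with `H` -/
structure Par {A : Type*} [Group A] (H : Subgroup A) (F : Type*) [AddCommGroup F] (x : F → A) : Prop where
  add : ∀ s t, x (s + t) = x s * x t
  inj : Function.Injective x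
  mem : ∀ u, u ∈ H ↔ ∃ t, u = x t

/-- the scalar multiplication defined by the coordinates `x` on a subgroup of `U i` -/
noncomputable def MS.sm {n : ℕ} {A : Type*} [Group A] (M : MS n A) (i : ℤ) {F : Type*} [One F] (x : F → A) (t : F)
    (v : A) : A := (M.mu i (x 1))⁻¹ * M.ph i (x t) v * M.mu i (x 1)

/-- the field structure on `Y` -/
structure QR {n : ℕ} {A : Type*} [Group A] (M : MS n A) (i : ℤ) (Y V V₀ : Subgroup A) (F : Type*) [Field F]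
    (x : F → A) : Prop extends Par Y F x where
  mul : ∀ s t, ∀ v ∈ V, (M.sm i x (s * t) v)⁻¹ * M.sm i x s (M.sm i x t v) ∈ V₀

/-! ### Quadrangles -/

/-- the elements of `U i` that commute with `U (i + 2)` -/
def MS.Y {A : Type*} [Group A] (M : MS 4 A) (i : ℤ) : Subgroup A := M.U i ⊓ Subgroup.centralizer (M.U (i + 2) : Set A)

/-- the quadratic space inside a quadrangle: `x` coordinatizes `Y 4`, `U 1` is a vector space -/
structure B4 {A : Type*} [Group A] (M : MS 4 A) (F : Type*) [Field F] where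
  x : F → A
  qr : QR M 4 (M.Y 4) (M.U 1) ⊥ F x
  e : A
  e_mem : e ∈ M.U 1
  q : A → F
  b : A → A → F
  q_e : q e = 1
  q_eq_zero : ∀ u ∈ M.U 1, q u = 0 ↔ u = 1
  q_mul : ∀ u ∈ M.U 1, ∀ v ∈ M.U 1, q (u * v) = q u + q v + b u v
  q_sm : ∀ t, ∀ u ∈ M.U 1, q (M.sm 4 x t u) = t ^ 2 * q u
  b_mul_left : ∀ u ∈ M.U 1, ∀ u' ∈ M.U 1, ∀ v ∈ M.U 1, b (u * u') v = b u v + b u' v
  b_symm : ∀ u ∈ M.U 1, ∀ v ∈ M.U 1, b u v = b v u
  b_sm_left : ∀ t, ∀ u ∈ M.U 1, ∀ v ∈ M.U 1, b (M.sm 4 x t u) v = t * b u v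
  ph14 : ∀ u ∈ M.U 1, ∀ t, M.ph 1 u (x t) = M.ph 1 e (x (t * q u))
  rel14 : ∀ u ∈ M.U 1, ∀ t, ⁅u, x t⁆ = M.ph 1 e (x (t * q u)) * M.ph 4 (x (-t)) u
  rel13 : ∀ u ∈ M.U 1, ∀ v ∈ M.U 1, ⁅u, M.ph 4 (x 1) v⁆ = M.ph 1 e (x (-b u v))

/-- coordinates for a quadrangle -/
structure C4 {A : Type*} [Group A] (M : MS 4 A) (F : Type*) [Field F] where
  D : PQD F (M.U 4)
  x : F → A
  z : F → A
  ι : M.U 4 →* A
  px : Par (M.U 1) F x
  pz : Par (M.U 3) F z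
  ι_inj : Function.Injective ι
  ι_mem : ∀ u, u ∈ M.U 2 ↔ ∃ y, u = ι y
  comm13 : ∀ s t, ⁅x s, z (-t)⁆ = ι (D.g s t)
  comm24 : ∀ a b : M.U 4, ⁅ι a, (b : A)⁆ = z (D.f b a)
  comm14 : ∀ s (y : M.U 4), ⁅x s, (y : A)⁆ = ι (D.ρ s y) * z (-(s * D.π y))
  bit : (∀ s t, D.g s t = 1) ∨ ∃ y y', D.f y y' ≠ 0

/-! ### Hexagons -/

/-- the root groups of even index consist of central elations -/
def MS.Hex {A : Type*} [Group A] (M : MS 6 A) : Prop :=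
  ∀ i : ℤ, Even i → (∀ j : ℤ, i - 3 ≤ j → j ≤ i + 3 → ∀ u ∈ M.U i, ∀ v ∈ M.U j, Commute u v) ∧
    ∀ u ∈ M.U i, ∀ v ∈ M.U (i + 4), ⁅u, v⁆ ∈ M.U (i + 2)

/-- coordinates on the root groups of a hexagon, and two tori -/
structure B6 {A : Type*} [Group A] (M : MS 6 A) (F J : Type*) [Field F] [AddCommGroup J] [Module F J] where
  x1 : J → A
  x2 : F → A
  x3 : J → A
  x4 : F → A
  x5 : J → A
  x6 : F → A
  p1 : Par (M.U 1) J x1
  p2 : Par (M.U 2) F x2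
  p3 : Par (M.U 3) J x3
  p4 : Par (M.U 4) F x4
  p5 : Par (M.U 5) J x5
  p6 : Par (M.U 6) F x6
  e : J
  e_ne : e ≠ 0
  ph15 : ∀ t a, M.ph 6 (x6 t) (x1 a) = x5 (t • a)
  ph24 : ∀ t s, M.ph 6 (x6 t) (x2 s) = x4 (t * s)
  ph51 : ∀ a, M.ph 6 (x6 1) (x5 a) = x1 (-a)
  ph42 : ∀ s, M.ph 6 (x6 1) (x4 s) = x2 (-s)
  ph62 : ∀ t, M.ph 1 (x1 e) (x6 t) = x2 t
  ph53 : ∀ a, M.ph 1 (x1 e) (x5 a) = x3 a
  la_eq : ∀ i : ℤ, Even i → ∀ u ∈ M.U i, M.la i u = (M.mu i u)⁻¹ * u * M.mu i u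
  rel26 : ∀ s t, ⁅x2 s, x6 t⁆ = x4 (-(s * t))
  tor_h : ∀ s : F, s ≠ 0 → ∃ h : A, (∀ a, h * x1 a * h⁻¹ = x1 (s • a)) ∧ (∀ t, h * x2 t * h⁻¹ = x2 (s * t)) ∧
    (∀ a, h * x3 a * h⁻¹ = x3 a) ∧ (∀ t, h * x4 t * h⁻¹ = x4 (s⁻¹ * t)) ∧ (∀ a, h * x5 a * h⁻¹ = x5 (s⁻¹ • a)) ∧
    ∀ t, h * x6 t * h⁻¹ = x6 (s⁻¹ ^ 2 * t)
  tor_k : ∀ r : F, r ≠ 0 → ∃ k : A, (∀ u ∈ M.U 1, Commute k u) ∧ (∀ u ∈ M.U 7, Commute k u) ∧
    (∀ t, k * x2 t * k⁻¹ = x2 (r * t)) ∧ (∀ a, k * x3 a * k⁻¹ = x3 (r • a)) ∧ (∀ t, k * x4 t * k⁻¹ = x4 (r ^ 2 * t)) ∧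
    (∀ a, k * x5 a * k⁻¹ = x5 (r • a)) ∧ ∀ t, k * x6 t * k⁻¹ = x6 (r * t)

/-- the commutator relations of a hexagon -/
structure C6 {A : Type*} [Group A] (M : MS 6 A) (F J : Type*) [Field F] [AddCommGroup J] [Module F J]
    extends B6 M F J where
  N : J → F
  sh : J → J
  T : J →ₗ[F] J →ₗ[F] F
  X : J →ₗ[F] J →ₗ[F] J
  ph16 : ∀ a t, M.ph 1 (x1 a) (x6 t) = x2 (t * N a)
  rel13 : ∀ a b, ⁅x1 a, x3 b⁆ = x2 (T b a)
  rel35 : ∀ a b, ⁅x3 a, x5 b⁆ = x4 (-T a b)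
  rel15 : ∀ a b, ⁅x1 a, x5 b⁆ = x2 (-T (sh a) b) * x3 (-X a b) * x4 (-T (sh b) a)
  rel16 : ∀ a t, ⁅x1 a, x6 t⁆ = x2 (t * N a) * x3 (t • sh a) * x4 (-(t ^ 2 * N a)) * x5 (-(t • a))
  N_smul : ∀ (s : F) a, N (s • a) = s ^ 3 * N a
  sh_smul : ∀ (s : F) a, sh (s • a) = s ^ 2 • sh a
  sh_add : ∀ a b, sh (a + b) = sh a + sh b + X a b
  N_add : ∀ a b, N (a + b) = N a + N b + T (sh a) b + T (sh b) a
  T_sh : ∀ a, T (sh a) a = 3 * N a
  T_X : ∀ a b c, T (X a b) c = T (X a c) b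

/-- an anisotropic hexagonal system -/
structure HS (F J : Type*) [Field F] [AddCommGroup J] [Module F J] where
  N : J → F
  sh : J → J
  T : J →ₗ[F] J →ₗ[F] F
  X : J →ₗ[F] J →ₗ[F] J
  e : J
  N_smul : ∀ (s : F) a, N (s • a) = s ^ 3 * N a
  sh_smul : ∀ (s : F) a, sh (s • a) = s ^ 2 • sh a
  sh_add : ∀ a b, sh (a + b) = sh a + sh b + X a b
  N_add : ∀ a b, N (a + b) = N a + N b + T (sh a) b + T (sh b) a
  T_sh : ∀ a, T (sh a) a = 3 * N a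
  T_X : ∀ a b c, T (X a b) c = T (X a c) b
  T_symm : ∀ a b, T a b = T b a
  sh_sh : ∀ a, sh (sh a) = N a • a
  sh_e : sh e = e
  N_e : N e = 1
  X_e : ∀ a, X e a = T e a • e - a
  aniso : ∀ a, N a = 0 → a = 0

/-! ### Octagons -/

/-- the central elations in `U i` -/
def MS.V {A : Type*} [Group A] (M : MS 8 A) (i : ℤ) : Subgroup A :=
  M.U i ⊓ ⨅ j : ℤ, ⨅ _ : j ≠ i ∧ i - 4 ≤ j ∧ j ≤ i + 4, Subgroup.centralizer (M.U j : Set A)

/-- the root groups are `2`-groups, and those of even index contain central elations -/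
def MS.Oct {A : Type*} [Group A] (M : MS 8 A) : Prop := (∀ i, IsPGroup 2 (M.U i)) ∧ M.V 0 ≠ ⊥

/-- a frame: base points `e i` permuted by a dihedral group of order `16` -/
structure N8 {A : Type*} [Group A] (M : MS 8 A) where
  e : ℤ → A
  w : A
  r : A
  e_mem : ∀ i, e i ∈ M.U i
  e_V : ∀ i : ℤ, Even i → e i ∈ M.V i
  e_ne : ∀ i, e i ≠ 1
  hw : M.T 2 w
  hr : M.R 8 r
  w_pow : w ^ 8 = 1
  r_r : r * r = 1
  r_w : r * w * r = w⁻¹
  mu_e : ∀ i : ℤ, M.mu i (e i) = w ^ i * r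
  w_e : ∀ i, w * e i * w⁻¹ = e (i + 2)
  r_e : ∀ i, r * e i * r⁻¹ = e (8 - i)
  S0 : (M.ka 8 (e 8))⁻¹ * e 7 * M.ka 8 (e 8) = e 1 * e 2 * e 3 * (M.ka 12 (e 12))⁻¹ * e 5 * M.ka 14 (e 14) * e 7
  S1 : (e 1)⁻¹ * e 8 * e 1 = e 2 * e 3 * (M.ka 12 (e 12))⁻¹ * e 5 * M.ka 14 (e 14) * e 7 * e 8

/-- the element `κ(e (i + 8))` of `U i` -/
noncomputable def N8.p {A : Type*} [Group A] {M : MS 8 A} (c : N8 M) (i : ℤ) : A := M.ka (i + 8) (c.e (i + 8))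

/-- coordinates for an octagon: `x i` on `U i` for odd `i` and on `V i` for even `i` -/
structure C8 {A : Type*} [Group A] (M : MS 8 A) (F : Type*) [Field F] extends N8 M where
  σ : F →+* F
  σσ : ∀ t, σ (σ t) = t ^ 2
  two : (2 : F) = 0
  x : ℤ → F → A
  px : ∀ i : ℤ, Odd i → Par (M.U i) F (x i)
  pz : ∀ i : ℤ, Even i → Par (M.V i) F (x i)
  x_one : ∀ i, x i 1 = e i
  w_x : ∀ i t, w * x i t * w⁻¹ = x (i + 2) t
  r_x : ∀ i t, r * x i t * r⁻¹ = x (8 - i) t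
  tor : ∀ v : F, v ≠ 0 → ∃ h, M.T 0 h ∧ ∀ t,
    h * x 1 t * h⁻¹ = x 1 (v⁻¹ ^ 2 * t) ∧ h * x 9 t * h⁻¹ = x 9 (v ^ 2 * t) ∧
    h * x 3 t * h⁻¹ = x 3 ((σ v)⁻¹ * t) ∧ h * x 15 t * h⁻¹ = x 15 ((σ v)⁻¹ * t) ∧
    h * x 5 t * h⁻¹ = x 5 t ∧ h * x 13 t * h⁻¹ = x 13 t ∧
    h * x 7 t * h⁻¹ = x 7 (σ v * t) ∧ h * x 11 t * h⁻¹ = x 11 (σ v * t) ∧
    h * x 0 t * h⁻¹ = x 0 ((v * σ v)⁻¹ * t) ∧ h * x 2 t * h⁻¹ = x 2 ((v * σ v)⁻¹ * t) ∧
    h * x 4 t * h⁻¹ = x 4 (v⁻¹ * t) ∧ h * x 14 t * h⁻¹ = x 14 (v⁻¹ * t) ∧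
    h * x 6 t * h⁻¹ = x 6 (v * t) ∧ h * x 12 t * h⁻¹ = x 12 (v * t) ∧
    h * x 8 t * h⁻¹ = x 8 (v * σ v * t) ∧ h * x 10 t * h⁻¹ = x 10 (v * σ v * t)

/-! ### Geometry -/

/-- the subgroup generated by all root groups -/
def dag {n : ℕ} {X : Type*} (Γ : FS.Pol n X) (G : Type*) [Group G] [MulAction G X] : Subgroup G :=
  ⨆ P, ⨆ _ : Γ.W P, ⨆ i, Γ.U G P i

/-- a polygon on which `G` acts with flag stabilizer `B` -/
structure PG (n : ℕ) (G : Type u) [Group G] (B U : Subgroup G) where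
  X : Type u
  Γ : FS.Pol n X
  H : Subgroup (Equiv.Perm X)
  π : G →* H
  surj : Function.Surjective π
  spl : Γ.Spl H
  x : X
  y : X
  adj : Γ.adj x y
  stab : ∀ g, g ∈ B ↔ π g • x = x ∧ π g • y = y
  le_V : ∀ u ∈ U, π u ∈ FS.V H x y
  h8 : n = 8 → ∀ a b, Γ.adj a b → IsSquare (2 * Γ.val a * Γ.val b)

/-- the Coxeter matrix of the dihedral group of order `2 n` -/
def mR (n i j : ℕ) : ℕ := if i = j then 1 else n

end CfsgLib.MP
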