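import Cfsg.Agent.Lib.MP.Defs
import Cfsg.Agent.Lib.Tits.ModA
import Cfsg.Agent.Lib.Tits.ModU
import Cfsg.Agent.S0247
import Cfsg.Agent.S0249
import Cfsg.Agent.S0270
import Cfsg.Agent.S0283

/-!
# Package MA: the classical models (see `plans/MP.md`)
-/

set_option autoImplicit false
set_option linter.unusedSectionVars false

namespace CfsgLib.MP
open Cfsg CfsgLib.Tits MulAction
open scoped commutatorElement

theorem ma_cg {n : ℕ} {M M' : ℕ → ℕ → ℕ} {q q' : ℕ → ℕ} {X : Type*} [Group X] (h : BNMod n M q X)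
    (h1 : ∀ i j : Fin n, M i j = M' i j) (h2 : ∀ i : Fin n, q i = q' i) : BNMod n M' q' X := by
  obtain ⟨P, e, p, hp, h3, h4⟩ := h
  refine ⟨P, e, p, hp, fun s t => (h3 s t).trans (h1 _ _), ?_⟩
  simpa only [h2] using h4

section
open CfsgLib.BN CfsgLib.RGD CfsgLib.Twist CfsgLib.LieAll CfsgLib.ClSys

theorem ma_mod_psu {F : Type} [Field F] [Fintype F] {N n q r : ℕ} (hn : 2 ≤ n) (hF : Fintype.card F = q ^ 2)
    (hN : N = 2 * n ∧ r = q ∨ N = 2 * n + 1 ∧ r = q ^ 3) :
    BNMod n (mB n) (fun i => if i + 1 = n then r else q ^ 2) (PSU N F q) := by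
  obtain ⟨e⟩ := nonempty_psu_equiv (n := N) hF (by omega)
  have hφ := Unitary.conj_conj hF
  have hM := (good_su hφ (Unitary.exists_not_fixed hF) (n := N) (by omega)).tw
  refine (Mh.bnMod_of_rep hM (fun a : Fin n => ⟨a, by have := a.2; omega⟩) ⟨fun c d e => ?_, fun c => ?_⟩
    (fun a b h => Mh.ord_A (by omega) _ _ h b.2) fun c => ?_).congr e
  · have := mem_J_symA.1 ((symA N).mem_J.2 e)
    have := c.2
    have := d.2
    simp only [Fin.ext_iff, Fin.val_rev] at *
    omega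
  · obtain ⟨i, rfl⟩ := (symA N).orb_surj c
    have := i.2
    by_cases h : i.val < n
    · exact ⟨⟨i, h⟩, rfl⟩
    · exact ⟨⟨i.rev, by rw [Fin.val_rev]; omega⟩, (symA N).orb_π i⟩
  have hc := c.2
  generalize hi : (⟨c, _⟩ : Fin (N - 1)) = i
  have hi' : i.val = c := by rw [← hi]
  have vi := i.val_rev
  split_ifs with d
  · rcases hN with ⟨hN, rfl⟩ | ⟨hN, rfl⟩
    · exact (Mh.card_one hM Fin.rev_rev (Fin.ext (show i.rev.val = i by omega))).trans
        (Unitary.card_fixedSubfield hF)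
    · have k : 2 * i.val + 3 = N := by omega
      rw [Ub_eq hM]
      refine (card_of_param (P := Σ t : F, {s : F // s + s ^ q = -(t * t ^ q)}) _ ?_ fun g =>
        ((a2_pos k).mem (T := suTw N (Unitary.conj hF)) ((suTw N _).σ_pos i) (su_pos _ i) hφ hM.sharp (a2_mem k)
          (a2_nodup k)).trans ⟨fun ⟨t, s, h1, h2⟩ => ⟨⟨t, s, h1⟩, h2⟩,
            fun ⟨p, h⟩ => ⟨p.1, p.2.1, p.2.2, h⟩⟩).trans ?_
      · rintro ⟨t, s, h⟩ ⟨t', s', h'⟩ e
        obtain ⟨rfl, -, rfl⟩ := x3_inj hM.sharp (fun r hr => ((a2_mem k r).1 hr).1) (a2_nodup k) e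
        rfl
      · rw [Nat.card_sigma, Finset.sum_congr rfl fun t _ => Unitary.card_trace_eq hF (by
          rw [Unitary.neg_pow_q hF, mul_pow, Unitary.pow_q_pow_q hF, mul_comm]), Finset.sum_const,
          Finset.card_univ, hF, smul_eq_mul, ← pow_succ]
  · exact (Mh.card_two hM Fin.rev_rev (Fin.ne_of_val_ne (show i.rev.val ≠ i by omega)) hφ
      (simple_symA (by omega) (by omega))).trans (Nat.card_eq_fintype_card.trans hF)

end

open CfsgLib.BN CfsgLib.LieAll CfsgLib.ClSys CfsgLib.Weyl CfsgLib.Chev CfsgLib.RGD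

variable {F : Type} [Field F] [Fintype F] {q : ℕ}

theorem mod_psl3 : BNMod 2 (mR 3) (fun _ => Nat.card F) (Matrix.ProjectiveSpecialLinearGroup (Fin 3) F) := by
  refine ma_cg (M := mA) (q := fun _ => Nat.card F) ?_ (by decide) fun _ => rfl
  refine (bnMod_id (M := mA) (good_psl (K := F) (n := 2 + 1) (by omega)).tw (finCongr (Nat.add_sub_cancel 2 1))
    (fun _ => if_pos rfl) fun i j h => ?_).congr Subgroup.topEquiv.symm
  have := Fin.val_ne_of_ne h
  have := mA_spec i j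
  simp only [rootA_A, if_neg h, if_neg h.symm, finCongr_apply, Fin.val_cast]
  split_ifs <;> omega

theorem mod_psp4 : BNMod 2 (mR 4) (fun _ => Nat.card F) (PSp 2 F) := by
  exact ma_cg ((bnMod_id (M := mB 2) (good_psp (K := F) (m := 2) (by omega)).tw (Equiv.refl _) (fun _ => if_pos rfl)
    (Mh.bc_M _)).congr Subgroup.topEquiv.symm) (by decide) fun _ => rfl

theorem mod_psu4 (hF : Fintype.card F = q ^ 2) : BNMod 2 (mR 4) (fun i => if i = 0 then q ^ 2 else q) (PSU 4 F q) := by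
  refine ma_cg (ma_mod_psu (n := 2) le_rfl hF (Or.inl ⟨rfl, rfl⟩)) (by decide) fun i => ?_
  fin_cases i <;> simp

theorem mod_psu5 (hF : Fintype.card F = q ^ 2) :
    BNMod 2 (mR 4) (fun i => if i = 0 then q ^ 2 else q ^ 3) (PSU 5 F q) := by
  refine ma_cg (ma_mod_psu (n := 2) le_rfl hF (Or.inr ⟨rfl, rfl⟩)) (by decide) fun i => ?_
  fin_cases i <;> simp

theorem simple_psl3 : IsSimpleGroup (Matrix.ProjectiveSpecialLinearGroup (Fin 3) F) := by
  exact Cfsg.Agent.S0249.result 3 le_rfl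

theorem simple_psp4 (h : 3 ≤ Fintype.card F) : IsSimpleGroup (PSp 2 F) := by
  exact Cfsg.Agent.S0270.result 2 le_rfl fun _ => h

theorem simple_psu {n : ℕ} (hn : 4 ≤ n) (hF : Fintype.card F = q ^ 2) : IsSimpleGroup (PSU n F q) := by
  exact Cfsg.Agent.S0283.result hF n (by omega) (by omega)

theorem index_two_psp4 (h : Fintype.card F = 2) : ∃ K : Subgroup (PSp 2 F), K.index = 2 := by
  have h5 : (2 : F) = 0 := by
    have := FiniteField.cast_card_eq_zero F
    rwa [h] at this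
  obtain ⟨e⟩ := Cfsg.Agent.S0247.result h
  let e' : Cfsg.PSp 2 F ≃* Equiv.Perm (Fin 6) :=
    ((QuotientGroup.quotientMulEquivOfEq (Symp.center_eq_bot_of_two_eq_zero h5)).trans
      QuotientGroup.quotientBot).trans e
  exact ⟨(alternatingGroup (Fin 6)).comap e'.toMonoidHom, by
    rw [Subgroup.index_comap_of_surjective _ e'.surjective, alternatingGroup.index_eq_two]⟩

end CfsgLib.MP
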