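import Cfsg.Agent.Lib.MP.Defs
import Cfsg.Agent.Lib.Tits.ModT
import Cfsg.Agent.Lib.LieModel.G22.Der

/-!
# Package MB: the exceptional models (see `plans/MP.md`)
-/

set_option autoImplicit false

namespace CfsgLib.MP
open Cfsg CfsgLib.Tits MulAction
open scoped commutatorElement

open Cfsg.Lie CfsgLib.BN CfsgLib.RGD CfsgLib.Twist CfsgLib.LieAll CfsgLib.ClSys CfsgLib.Chev CfsgLib.Weyl CfsgLib.ChevAut

variable {F : Type} [Field F] [Fintype F] {q m : ℕ}

theorem mod_G2 : BNMod 2 (mR 6) (fun _ => Nat.card F) (chevG2.group F) := by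
  have hK := (good_chev (K := F) rtOKG2 connChkG2).tw
  refine bnMod_of_isTw hK (finCongr rfl) (fun b c => ?_) fun b => ?_
  · rw [sw_eq_s' (idTw_J _ b), sw_eq_s' (idTw_J _ c)]
    have : ∀ b c : Fin chevG2.rank, ((rootSys rtOKG2).s b * (rootSys rtOKG2).s c) ^ mR 6 b c = 1 ∧
      ∀ m < mR 6 b c, 0 < m → ((rootSys rtOKG2).s b * (rootSys rtOKG2).s c) ^ m ≠ 1 := by decide +kernel
    exact (orderOf_eq_iff (by unfold mR; split_ifs <;> omega)).2 (this b c)
  · rw [Ub, inf_eq_left.2 fun g hg => hK.posJ_le b ⟨hg, StSys.UU_le_grp _ _ hg, rfl⟩, idTw_J, posJ_singleton,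
      hK.nondeg.card_UU (StSys.closed_singleton _) (by rintro _ rfl; exact RootSys.pos_simple _ b)]
    simp

theorem mod_3D4 (hq : IsPrimePow q) (hF : Fintype.card F = q ^ 3) :
    BNMod 2 (mR 6) (fun i => if i = 0 then q ^ 3 else q) (twistedD4 F q) := by
  obtain ⟨φ, hφ⟩ := Twist.exists_frob hq hF
  have hM := isTwD4 hφ (frob3 hφ hF)
  have k : ∀ b c : Fin 2, ordChk chevD4.nroots tSwD4 b c (mR 6 (Fin.revPerm b) (Fin.revPerm c)) = true := by
    decide +kernel
  refine bnMod_of_isTw hM Fin.revPerm (fun b c => orderOf_of_ordChk (swD4 b) (swD4 c) (k b c)) fun b => ?_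
  rw [Ub_eq hM]
  refine (cardJD4 hφ hF b).trans ?_
  fin_cases b <;> simp [wtD4]

theorem mod_2F4 (hF : Fintype.card F = 2 ^ (2 * m + 1)) :
    BNMod 2 (mR 8) (fun i => if i = 0 then 2 ^ (2 * m + 1) else (2 ^ (2 * m + 1)) ^ 2) (twistedF4 F (2 ^ m)) := by
  obtain ⟨_, θ, he, hθ⟩ := Twist.exists_theta hF
  have hM := isTwF4 he hθ
  have k : ∀ b c : Fin 2, ordChk chevF4.nroots tSwF4 b c (mR 8 b c) = true := by decide +kernel
  refine bnMod_of_isTw hM (Equiv.refl _) (fun b c => orderOf_of_ordChk (swF4 b) (swF4 c) (k b c)) fun b => ?_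
  rw [Ub_eq hM]
  refine (cardJF4 hθ b).trans ?_
  fin_cases b <;> simp [wtF4, hF]

theorem index_two_G2 (h : Fintype.card F = 2) : ∃ K : Subgroup (chevG2.group F), K.index = 2 := by
  obtain ⟨e⟩ := LieModel.G22.iso h
  obtain ⟨φ⟩ := LieModel.G22.iso_QG
  refine ⟨(LieModel.G22.QG.subgroupOf LieModel.G22.PG).comap e.toMonoidHom, ?_⟩
  rw [Subgroup.index_comap_of_surjective _ e.surjective]
  have := (LieModel.G22.QG.subgroupOf LieModel.G22.PG).card_mul_index
  rw [Nat.card_congr (Subgroup.subgroupOfEquivOfLe LieModel.G22.QG_le).toEquiv, ← Nat.card_congr φ.toEquiv,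
    LieModel.U33.card_PG, LieModel.G22.card_PG] at this
  omega

end CfsgLib.MP
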