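import Cfsg.Agent.Lib.MP.Base

/-!
# Package BM: the elements `μ(u)` (see `plans/MP.md`)
-/

set_option autoImplicit false

namespace CfsgLib.MP
open Cfsg CfsgLib.Tits MulAction
open scoped commutatorElement

namespace MS
variable {n : ℕ} {A : Type*} [Group A] {M : MS n A} {a b c i j k l : ℤ} {u u' v w g m p q : A}

theorem mu_spec (hu : u ∈ M.U i) (h : u ≠ 1) : M.Mu i u (M.ka i u) (M.la i u) := by
  have hx : ∃ x : A × A, M.Mu i u x.1 x.2 := by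
    obtain ⟨p, hp, q, hq, hr⟩ := M.mu_ex hu h
    exact ⟨(p, q), hu, h, hp, hq, hr⟩
  rw [ka, la, dif_pos hx, dif_pos hx]
  exact hx.choose_spec

theorem Mu.eq (h : M.Mu i u p q) : M.ka i u = p ∧ M.la i u = q ∧ M.mu i u = p * u * q := by
  have h' := mu_spec h.1 h.2.1
  obtain ⟨e1, e2⟩ := M.mu_uniq h.1 h.2.1 h'.2.2.1 h'.2.2.2.1 h.2.2.1 h.2.2.2.1 h'.2.2.2.2 h.2.2.2.2
  exact ⟨e1, e2, by rw [mu, e1, e2]⟩

@[simp] theorem ka_one : M.ka i 1 = 1 := by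
  rw [ka, dif_neg]
  rintro ⟨x, hx⟩
  exact hx.2.1 rfl

@[simp] theorem la_one : M.la i 1 = 1 := by
  rw [la, dif_neg]
  rintro ⟨x, hx⟩
  exact hx.2.1 rfl

@[simp] theorem mu_one : M.mu i 1 = 1 := by
  simp [mu]

@[simp] theorem ph_one : M.ph i 1 v = 1 := by
  simp [ph]

@[simp] theorem ph_one' : M.ph i u 1 = 1 := by
  simp [ph]

theorem ph_eq (h : u ≠ 1) : M.ph i u v = M.mu i u * v * (M.mu i u)⁻¹ := by
  rw [ph, if_neg h]

theorem ph_mul : M.ph i u (v * w) = M.ph i u v * M.ph i u w := by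
  by_cases h : u = 1
  · simp [h]
  · simp only [ph_eq h]; group

theorem ph_inv : M.ph i u v⁻¹ = (M.ph i u v)⁻¹ := by
  by_cases h : u = 1
  · simp [h]
  · simp only [ph_eq h]; group

theorem ph_eq_one : M.ph i u v = 1 ↔ u = 1 ∨ v = 1 := by
  by_cases h : u = 1
  · simp [h]
  · rw [ph_eq h]
    simp [h]

theorem ka_mem (e : (2 * n : ℤ) ∣ i + n - j) : M.ka i u ∈ M.U j := by
  rw [← M.U_eq e, ka]
  split_ifs with h
  · exact h.choose_spec.2.2.1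
  · exact one_mem _

theorem la_mem (e : (2 * n : ℤ) ∣ i + n - j) : M.la i u ∈ M.U j := by
  rw [← M.U_eq e, la]
  split_ifs with h
  · exact h.choose_spec.2.2.2.1
  · exact one_mem _

theorem U_add (e : j = i + n + n) : M.U j = M.U i := M.U_eq ⟨1, by rw [e]; ring⟩

theorem R_add (e : j = i + 2 * n) : M.R j = M.R i := M.R_eq ⟨1, by rw [e]; ring⟩

/-- a reflection `i ↦ 2 i + n - k` does not lie in `U i * U (i + n)` -/
theorem not_R_two (hu : u ∈ M.U i) (hq : q ∈ M.U (i + n)) (h : M.R (2 * i + n) (u * q)) : False := by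
  have h3 := M.three
  obtain ⟨v, hv, hv1⟩ : ∃ v ∈ M.U (i + n - 1), v ≠ 1 := by
    by_contra hc
    push Not at hc
    exact M.nontriv (i + n - 1) ((Subgroup.eq_bot_iff_forall _).2 hc)
  have h1 : u * q * v * (u * q)⁻¹ ∈ M.U (i + 1) := R_mem h hv ⟨0, by ring⟩
  have h2 : Commute q v := commute_adj hq hv (Or.inr rfl)
  rw [show u * q * v * (u * q)⁻¹ = u * (q * v) * q⁻¹ * u⁻¹ by group, h2.eq,
    show u * (v * q) * q⁻¹ * u⁻¹ = ⁅u, v⁆ * v by rw [commutatorElement_def]; group] at h1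
  have h4 := M.comm (by omega) (by omega) hu hv
  refine hv1 (uniq_right (i := i + 1) (k := i + n - 2) hv (one_mem _) (Iv_mono h4 le_rfl (by omega))
    (mem_Iv h1 le_rfl (by omega)) (by omega) (by omega) (by rw [mul_one])).2

theorem ka_ne (hu : u ∈ M.U i) (h : u ≠ 1) : M.ka i u ≠ 1 := by
  intro e
  have h' := mu_spec hu h
  refine not_R_two hu h'.2.2.2.1 ?_
  have := h'.2.2.2.2
  rwa [e, one_mul] at this

theorem la_ne (hu : u ∈ M.U i) (h : u ≠ 1) : M.la i u ≠ 1 := by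
  intro e
  have h' := mu_spec hu h
  refine not_R_two (inv_mem hu) (inv_mem h'.2.2.1) ?_
  have := M.R_inv h'.2.2.2.2
  rwa [e, mul_one, mul_inv_rev] at this

theorem mu_R (hu : u ∈ M.U i) (h : u ≠ 1) (e : (2 * n : ℤ) ∣ 2 * i + n - c) : M.R c (M.mu i u) := by
  rw [← M.R_eq e]
  exact (mu_spec hu h).2.2.2.2

theorem ph_mem (hu : u ∈ M.U i) (hv : v ∈ M.U j) (e : (2 * n : ℤ) ∣ 2 * i + n - j - k) : M.ph i u v ∈ M.U k := by
  by_cases h : u = 1
  · simp [h]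
  · rw [ph_eq h]
    exact R_mem (mu_R hu h (c := 2 * i + n) (by simp)) hv e

theorem ph_surj (hu : u ∈ M.U i) (h : u ≠ 1) (hw : w ∈ M.U k) (e : (2 * n : ℤ) ∣ 2 * i + n - j - k) :
    ∃ v ∈ M.U j, M.ph i u v = w := by
  refine ⟨(M.mu i u)⁻¹ * w * M.mu i u, ?_, by rw [ph_eq h]; group⟩
  rw [← R_mem_iff (mu_R hu h (c := 2 * i + n) (by simp)) e]
  simpa [mul_assoc] using hw

theorem Mu_per (e : (2 * n : ℤ) ∣ i - j) : M.Mu i = M.Mu j := by
  funext u p q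
  rw [Mu, Mu, M.U_eq e, M.U_eq (i := i + n) (j := j + n) (by simpa using e),
    M.R_eq (i := 2 * i + n) (j := 2 * j + n) (by
      rw [show 2 * i + n - (2 * j + n) = 2 * (i - j) by ring]; exact e.mul_left 2)]

theorem ka_per (e : (2 * n : ℤ) ∣ i - j) : M.ka i = M.ka j := by
  funext u
  rw [ka, ka, Mu_per e]

theorem la_per (e : (2 * n : ℤ) ∣ i - j) : M.la i = M.la j := by
  funext u
  rw [la, la, Mu_per e]

theorem mu_per (e : (2 * n : ℤ) ∣ i - j) : M.mu i = M.mu j := by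
  funext u
  simp only [mu, ka_per e, la_per e]

theorem ph_per (e : (2 * n : ℤ) ∣ i - j) : M.ph i = M.ph j := by
  funext u v
  simp only [ph, mu_per e]

theorem Mu.inv (h : M.Mu i u p q) : M.Mu i u⁻¹ q⁻¹ p⁻¹ :=
  ⟨inv_mem h.1, inv_ne_one.2 h.2.1, inv_mem h.2.2.2.1, inv_mem h.2.2.1, by
    have := M.R_inv h.2.2.2.2
    rwa [show (p * u * q)⁻¹ = q⁻¹ * u⁻¹ * p⁻¹ by group] at this⟩

theorem Mu.la (h : M.Mu i u p q) : M.Mu (i + n) q u ((p * u * q)⁻¹ * p * (p * u * q)) := by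
  have hq : q ≠ 1 := h.eq.2.1 ▸ la_ne h.1 h.2.1
  refine ⟨h.2.2.2.1, hq, by rw [U_add rfl]; exact h.1, ?_, ?_⟩
  · have := R_mem (M.R_inv h.2.2.2.2) h.2.2.1 (j := i + n + n) ⟨-1, by ring⟩
    rwa [inv_inv] at this
  · rw [show u * q * ((p * u * q)⁻¹ * p * (p * u * q)) = p * u * q by group, R_add (i := 2 * i + n) (by ring)]
    exact h.2.2.2.2

theorem Mu.ka (h : M.Mu i u p q) : M.Mu (i + n) p ((p * u * q) * q * (p * u * q)⁻¹) u := by
  have hp : p ≠ 1 := h.eq.1 ▸ ka_ne h.1 h.2.1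
  refine ⟨h.2.2.1, hp, ?_, by rw [U_add rfl]; exact h.1, ?_⟩
  · exact R_mem h.2.2.2.2 h.2.2.2.1 (j := i + n + n) ⟨-1, by ring⟩
  · rw [show (p * u * q) * q * (p * u * q)⁻¹ * p * u = p * u * q by group, R_add (i := 2 * i + n) (by ring)]
    exact h.2.2.2.2

theorem Mu.T (h : M.Mu i u p q) (hg : M.T c g) : M.Mu (i + c) (g * u * g⁻¹) (g * p * g⁻¹) (g * q * g⁻¹) := by
  refine ⟨M.T_conj hg h.1, by simpa using h.2.1, T_mem hg h.2.2.1 ⟨0, by ring⟩, T_mem hg h.2.2.2.1 ⟨0, by ring⟩, ?_⟩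
  have := M.R_T (M.T_R hg h.2.2.2.2) (M.T_inv hg)
  rw [show g * p * g⁻¹ * (g * u * g⁻¹) * (g * q * g⁻¹) = g * (p * u * q) * g⁻¹ by group,
    show 2 * (i + c) + n = c + (2 * i + n) - -c by ring]
  exact this

theorem Mu.R (h : M.Mu i u p q) (hg : M.R c g) : M.Mu (c - i) (g * u * g⁻¹) (g * p * g⁻¹) (g * q * g⁻¹) := by
  refine ⟨M.R_conj hg h.1, by simpa using h.2.1, R_mem hg h.2.2.1 ⟨-1, by ring⟩, R_mem hg h.2.2.2.1 ⟨-1, by ring⟩, ?_⟩
  have := M.T_R (M.R_R hg h.2.2.2.2) (M.R_inv hg)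
  rw [show g * p * g⁻¹ * (g * u * g⁻¹) * (g * q * g⁻¹) = g * (p * u * q) * g⁻¹ by group,
    R_add (i := c - (2 * i + n) + c) (by ring)]
  exact this

theorem ka_inv (hu : u ∈ M.U i) : M.ka i u⁻¹ = (M.la i u)⁻¹ := by
  by_cases h : u = 1
  · simp [h]
  · exact (mu_spec hu h).inv.eq.1

theorem la_inv (hu : u ∈ M.U i) : M.la i u⁻¹ = (M.ka i u)⁻¹ := by
  by_cases h : u = 1
  · simp [h]
  · exact (mu_spec hu h).inv.eq.2.1

theorem mu_inv (hu : u ∈ M.U i) : M.mu i u⁻¹ = (M.mu i u)⁻¹ := by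
  by_cases h : u = 1
  · simp [h]
  · rw [(mu_spec hu h).inv.eq.2.2, mu]; group

theorem mu_la (hu : u ∈ M.U i) (e : (2 * n : ℤ) ∣ i + n - j) : M.mu j (M.la i u) = M.mu i u := by
  by_cases h : u = 1
  · simp [h]
  · rw [← mu_per e, (mu_spec hu h).la.eq.2.2, mu]; group

theorem mu_ka (hu : u ∈ M.U i) (e : (2 * n : ℤ) ∣ i + n - j) : M.mu j (M.ka i u) = M.mu i u := by
  by_cases h : u = 1
  · simp [h]
  · rw [← mu_per e, (mu_spec hu h).ka.eq.2.2, mu]; group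

theorem ka_la (hu : u ∈ M.U i) (e : (2 * n : ℤ) ∣ i + n - j) : M.ka j (M.la i u) = u := by
  by_cases h : u = 1
  · simp [h]
  · rw [← ka_per e, (mu_spec hu h).la.eq.1]

theorem la_ka (hu : u ∈ M.U i) (e : (2 * n : ℤ) ∣ i + n - j) : M.la j (M.ka i u) = u := by
  by_cases h : u = 1
  · simp [h]
  · rw [← la_per e, (mu_spec hu h).ka.eq.2.1]

theorem la_la (hu : u ∈ M.U i) (e : (2 * n : ℤ) ∣ i + n - j) :
    M.la j (M.la i u) = (M.mu i u)⁻¹ * M.ka i u * M.mu i u := by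
  by_cases h : u = 1
  · simp [h]
  · rw [← la_per e, (mu_spec hu h).la.eq.2.1, mu]

theorem ka_ka (hu : u ∈ M.U i) (e : (2 * n : ℤ) ∣ i + n - j) :
    M.ka j (M.ka i u) = M.mu i u * M.la i u * (M.mu i u)⁻¹ := by
  by_cases h : u = 1
  · simp [h]
  · rw [← ka_per e, (mu_spec hu h).ka.eq.1, mu]

theorem T_ka (hg : M.T c g) (hu : u ∈ M.U i) (e : (2 * n : ℤ) ∣ i + c - j) :
    g * M.ka i u * g⁻¹ = M.ka j (g * u * g⁻¹) := by
  by_cases h : u = 1
  · simp [h]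
  · rw [← ka_per e, ((mu_spec hu h).T hg).eq.1]

theorem T_la (hg : M.T c g) (hu : u ∈ M.U i) (e : (2 * n : ℤ) ∣ i + c - j) :
    g * M.la i u * g⁻¹ = M.la j (g * u * g⁻¹) := by
  by_cases h : u = 1
  · simp [h]
  · rw [← la_per e, ((mu_spec hu h).T hg).eq.2.1]

theorem T_mu (hg : M.T c g) (hu : u ∈ M.U i) (e : (2 * n : ℤ) ∣ i + c - j) :
    g * M.mu i u * g⁻¹ = M.mu j (g * u * g⁻¹) := by
  rw [mu, mu, ← T_ka hg hu e, ← T_la hg hu e]; group

theorem T_ph (hg : M.T c g) (hu : u ∈ M.U i) (e : (2 * n : ℤ) ∣ i + c - j) :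
    g * M.ph i u v * g⁻¹ = M.ph j (g * u * g⁻¹) (g * v * g⁻¹) := by
  by_cases h : u = 1
  · simp [h]
  · rw [ph_eq h, ph_eq (by simpa using h), ← T_mu hg hu e]; group

theorem R_ka (hg : M.R c g) (hu : u ∈ M.U i) (e : (2 * n : ℤ) ∣ c - i - j) :
    g * M.ka i u * g⁻¹ = M.ka j (g * u * g⁻¹) := by
  by_cases h : u = 1
  · simp [h]
  · rw [← ka_per e, ((mu_spec hu h).R hg).eq.1]

theorem R_la (hg : M.R c g) (hu : u ∈ M.U i) (e : (2 * n : ℤ) ∣ c - i - j) :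
    g * M.la i u * g⁻¹ = M.la j (g * u * g⁻¹) := by
  by_cases h : u = 1
  · simp [h]
  · rw [← la_per e, ((mu_spec hu h).R hg).eq.2.1]

theorem R_mu (hg : M.R c g) (hu : u ∈ M.U i) (e : (2 * n : ℤ) ∣ c - i - j) :
    g * M.mu i u * g⁻¹ = M.mu j (g * u * g⁻¹) := by
  rw [mu, mu, ← R_ka hg hu e, ← R_la hg hu e]; group

theorem R_ph (hg : M.R c g) (hu : u ∈ M.U i) (e : (2 * n : ℤ) ∣ c - i - j) :
    g * M.ph i u v * g⁻¹ = M.ph j (g * u * g⁻¹) (g * v * g⁻¹) := by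
  by_cases h : u = 1
  · simp [h]
  · rw [ph_eq h, ph_eq (by simpa using h), ← R_mu hg hu e]; group

theorem mu_T (hu : u ∈ M.U i) (h : u ≠ 1) (hv : v ∈ M.U i) (h' : v ≠ 1) : M.T 0 ((M.mu i u)⁻¹ * M.mu i v) := by
  have := M.R_R (M.R_inv (mu_spec hu h).2.2.2.2) (mu_spec hv h').2.2.2.2
  rwa [sub_self] at this

theorem commute_mu (h1 : ∀ x ∈ M.U i, Commute g x) (h2 : ∀ x ∈ M.U j, Commute g x) (hu : u ∈ M.U i)
    (e : (2 * n : ℤ) ∣ i + n - j) : Commute g (M.mu i u) := by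
  exact ((h2 _ (ka_mem e)).mul_right (h1 u hu)).mul_right (h2 _ (la_mem e))

theorem exists_ne (M : MS n A) (i : ℤ) : ∃ u ∈ M.U i, u ≠ 1 := by
  by_contra hc
  push Not at hc
  exact M.nontriv i ((Subgroup.eq_bot_iff_forall _).2 hc)

theorem exists_R (i : ℤ) : ∃ m, M.R (2 * i + n) m := by
  obtain ⟨u, hu, h⟩ := M.exists_ne i
  exact ⟨_, (mu_spec hu h).2.2.2.2⟩

theorem exists_T (e : (2 : ℤ) ∣ c) : ∃ m, M.T c m := by
  obtain ⟨k, rfl⟩ := e
  obtain ⟨m, hm⟩ := exists_R (M := M) k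
  obtain ⟨m', hm'⟩ := exists_R (M := M) 0
  have := M.R_R hm hm'
  exact ⟨_, by rwa [show 2 * k + n - (2 * 0 + n) = 2 * k by ring] at this⟩

theorem card_of_conj {H K : Subgroup A} (h : ∀ u, g * u * g⁻¹ ∈ K ↔ u ∈ H) : Nat.card H = Nat.card K :=
  Nat.card_congr
    { toFun := fun x => ⟨g * x * g⁻¹, (h _).2 x.2⟩
      invFun := fun x => ⟨g⁻¹ * x * g, (h _).1 (by simp [mul_assoc])⟩
      left_inv := fun x => Subtype.ext (by simp only; group)
      right_inv := fun x => Subtype.ext (by simp only; group) }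

theorem card_eq (e : (2 : ℤ) ∣ i - j ∨ Odd n) : Nat.card (M.U i) = Nat.card (M.U j) := by
  by_cases c : (2 : ℤ) ∣ i - j
  · obtain ⟨m, hm⟩ := exists_T (M := M) (c := j - i) (by omega)
    exact card_of_conj fun u => T_mem_iff hm ⟨0, by ring⟩
  · obtain ⟨k, hk⟩ := e.resolve_left c
    obtain ⟨m, hm⟩ := exists_R (M := M) ((i + j - n) / 2)
    exact card_of_conj fun u => R_mem_iff hm ⟨0, by omega⟩

/-- the shift identity -/
theorem sh1 (h : Commute (M.la i u) v) : u * v * u⁻¹ = (M.ka i u)⁻¹ * (M.mu i u * v * (M.mu i u)⁻¹) * M.ka i u := by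
  rw [mu, show (M.ka i u)⁻¹ * (M.ka i u * u * M.la i u * v * (M.ka i u * u * M.la i u)⁻¹) * M.ka i u =
    u * (M.la i u * v) * (M.la i u)⁻¹ * u⁻¹ by group, h.eq]
  group

theorem sh2 (h : Commute (M.ka i u) v) : u⁻¹ * v * u = M.la i u * ((M.mu i u)⁻¹ * v * M.mu i u) * (M.la i u)⁻¹ := by
  rw [mu, show M.la i u * ((M.ka i u * u * M.la i u)⁻¹ * v * (M.ka i u * u * M.la i u)) * (M.la i u)⁻¹ =
    u⁻¹ * (M.ka i u)⁻¹ * (v * M.ka i u) * u by group, ← h.eq]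
  group

/-- the first component of a commutator -/
theorem fst' (hu : u ∈ M.U i) (hv : v ∈ M.U j) (h : Commute (M.la i u) v) (h1 : j < i + n) (h2 : k = 2 * i + n - j)
    (h3 : k < j) : ∃ g ∈ M.I (k + 1) (j - 1), u * v * u⁻¹ = M.ph i u v * g * v := by
  have hn := M.three
  by_cases h0 : u = 1
  · exact ⟨1, one_mem _, by simp [h0]⟩
  have ha : M.ph i u v ∈ M.U k := ph_mem hu hv ⟨0, by rw [h2]; ring⟩
  have hκ : M.ka i u ∈ M.U (i + n) := ka_mem ⟨0, by ring⟩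
  have e1 := sh1 h
  rw [← ph_eq h0] at e1
  set a := M.ph i u v
  have c1 : ⁅a⁻¹, (M.ka i u)⁻¹⁆ ∈ M.I (k + 1) (i + n - 1) := M.comm (by omega) (by omega) (inv_mem ha) (inv_mem hκ)
  have c2 : ⁅u, v⁆ ∈ M.I (i + 1) (j - 1) := M.comm (by omega) (by omega) hu hv
  have e2 : ⁅a⁻¹, (M.ka i u)⁻¹⁆ * v⁻¹ = a⁻¹ * ⁅u, v⁆ := by
    rw [commutatorElement_def u v, e1, commutatorElement_def]; group
  refine ⟨a⁻¹ * ⁅u, v⁆, inter (i := i + 1) (l := i + n - 1) (mul_mem (inv_mem (mem_Iv ha (by omega) (by omega))) c2)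
    (e2 ▸ mul_mem c1 (inv_mem (mem_Iv hv (by omega) (by omega)))) (by omega) (by omega) (by omega), ?_⟩
  rw [commutatorElement_def]; group

/-- the last component of a commutator -/
theorem lst' (hu : u ∈ M.U i) (hv : v ∈ M.U j) (h : Commute (M.la i u) v) (h1 : i - n < j) (h2 : k = 2 * i - n - j)
    (h3 : j < k) : ∃ g ∈ M.I (j + 1) (k - 1), u * v * u⁻¹ = v * g * M.ph i u v := by
  have hn := M.three
  by_cases h0 : u = 1
  · exact ⟨1, one_mem _, by simp [h0]⟩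
  have ha : M.ph i u v ∈ M.U k := ph_mem hu hv ⟨1, by rw [h2]; ring⟩
  have hκ : M.ka i u ∈ M.U (i - n) := ka_mem ⟨1, by ring⟩
  have e1 := sh1 h
  rw [← ph_eq h0] at e1
  set a := M.ph i u v
  have c1 : ⁅(M.ka i u)⁻¹, a⁆ ∈ M.I (i - n + 1) (k - 1) := M.comm (by omega) (by omega) (inv_mem hκ) ha
  have c2 : ⁅v⁻¹, u⁆ ∈ M.I (j + 1) (i - 1) := M.comm (by omega) (by omega) (inv_mem hv) hu
  have e2 : v⁻¹ * ⁅(M.ka i u)⁻¹, a⁆ = ⁅v⁻¹, u⁆ * a⁻¹ := by
    rw [commutatorElement_def v⁻¹ u, show v⁻¹ * u * v⁻¹⁻¹ * u⁻¹ = v⁻¹ * (u * v * u⁻¹) by group, e1,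
      commutatorElement_def]; group
  refine ⟨⁅v⁻¹, u⁆ * a⁻¹, inter (i := i - n + 1) (l := i - 1)
    (e2 ▸ mul_mem (inv_mem (mem_Iv hv (by omega) (by omega))) c1)
    (mul_mem c2 (inv_mem (mem_Iv ha (by omega) (by omega)))) (by omega) (by omega) (by omega), ?_⟩
  rw [commutatorElement_def]; group

theorem fst (hu : u ∈ M.U i) (hv : v ∈ M.U j) (e : j = i + n - 1) :
    ∃ g ∈ M.I (i + 2) (j - 1), u * v * u⁻¹ = M.ph i u v * g * v := by
  have hn := M.three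
  obtain ⟨g, hg, e'⟩ := fst' (k := i + 1) hu hv (commute_adj (la_mem (j := i + n) ⟨0, by ring⟩) hv (Or.inr e))
    (by omega) (by omega) (by omega)
  exact ⟨g, Iv_mono hg (by omega) le_rfl, e'⟩

theorem lst (hu : u ∈ M.U i) (hv : v ∈ M.U j) (e : j = i - n + 1) :
    ∃ g ∈ M.I (j + 1) (i - 2), u * v * u⁻¹ = v * g * M.ph i u v := by
  have hn := M.three
  obtain ⟨g, hg, e'⟩ := lst' (k := i - 1) hu hv (commute_adj (la_mem (j := i - n) ⟨1, by ring⟩) hv (Or.inl e))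
    (by omega) (by omega) (by omega)
  exact ⟨g, Iv_mono hg le_rfl (by omega), e'⟩

theorem shift_Mu (c i : ℤ) : (M.shift c).Mu i = M.Mu (i + c) := by
  funext u p q
  simp only [Mu, shift]
  rw [add_right_comm i n c, show 2 * i + n + 2 * c = 2 * (i + c) + n by ring]

theorem rev_Mu (c i : ℤ) : (M.rev c).Mu i = M.Mu (c - i) := by
  funext u p q
  simp only [Mu, rev]
  rw [M.U_eq (i := c - (i + n)) (j := c - i + n) ⟨-1, by ring⟩,
    M.R_eq (i := 2 * c - (2 * i + n)) (j := 2 * (c - i) + n) ⟨-1, by ring⟩]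

theorem shift_ka (c i : ℤ) : (M.shift c).ka i = M.ka (i + c) := by
  funext u
  rw [ka, ka, shift_Mu]

theorem shift_la (c i : ℤ) : (M.shift c).la i = M.la (i + c) := by
  funext u
  rw [la, la, shift_Mu]

theorem shift_mu (c i : ℤ) : (M.shift c).mu i = M.mu (i + c) := by
  funext u
  simp only [mu, shift_ka, shift_la]

theorem shift_ph (c i : ℤ) : (M.shift c).ph i = M.ph (i + c) := by
  funext u v
  simp only [ph, shift_mu]

theorem rev_ka (c i : ℤ) : (M.rev c).ka i = M.ka (c - i) := by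
  funext u
  rw [ka, ka, rev_Mu]

theorem rev_la (c i : ℤ) : (M.rev c).la i = M.la (c - i) := by
  funext u
  rw [la, la, rev_Mu]

theorem rev_mu (c i : ℤ) : (M.rev c).mu i = M.mu (c - i) := by
  funext u
  simp only [mu, rev_ka, rev_la]

theorem rev_ph (c i : ℤ) : (M.rev c).ph i = M.ph (c - i) := by
  funext u v
  simp only [ph, rev_mu]

theorem shift_U (c i : ℤ) : (M.shift c).U i = M.U (i + c) := rfl

theorem rev_U (c i : ℤ) : (M.rev c).U i = M.U (c - i) := rfl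

theorem shift_I (c i j : ℤ) : (M.shift c).I i j = M.I (i + c) (j + c) := Iv_shift _ _ _ _

theorem rev_I (c i j : ℤ) : (M.rev c).I i j = M.I (c - j) (c - i) := Iv_rev _ _ _ _

end MS

end CfsgLib.MP
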