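import Cfsg.Agent.Lib.MP.QS0

/-!
# Package QS: consequences of the field structure (see `plans/MP.md`)
-/

set_option autoImplicit false
set_option linter.unusedSectionVars false

namespace CfsgLib.MP
open Cfsg CfsgLib.Tits MulAction
open scoped commutatorElement

theorem dedekind2 {F K : Type*} [Field F] [Field K] {α β : F →+* K} {a b : K} (ha : a ≠ 0) (h : ∀ t, a * α t = b * β t) :
    α = β := by
  have h1 : a = b := by simpa using h 1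
  subst h1
  exact RingHom.ext fun t => mul_left_cancel₀ ha (h t)

theorem dedekind3 {F K : Type*} [Field F] [Field K] {α β γ : F →+* K} {a b c : K} (hb : b ≠ 0) (hc : c ≠ 0)
    (h : ∀ t, a * α t = b * β t + c * γ t) : β = γ := by
  by_cases h1 : ∃ s, β s ≠ α s
  · obtain ⟨s, hs⟩ := h1
    refine dedekind2 (a := b * (β s - α s)) (b := -(c * (γ s - α s))) (mul_ne_zero hb (sub_ne_zero.2 hs)) fun t => ?_
    have h2 := h (s * t)
    rw [map_mul, map_mul, map_mul] at h2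
    linear_combination α s * h t - h2
  by_cases h2 : ∃ s, γ s ≠ α s
  · obtain ⟨s, hs⟩ := h2
    refine (dedekind2 (a := c * (γ s - α s)) (b := -(b * (β s - α s))) (mul_ne_zero hc (sub_ne_zero.2 hs))
      fun t => ?_).symm
    have h2 := h (s * t)
    rw [map_mul, map_mul, map_mul] at h2
    linear_combination α s * h t - h2
  push Not at h1 h2
  exact RingHom.ext fun t => (h1 t).trans (h2 t).symm

/-- the element `h_t = μ(x 1)⁻¹ μ(x t)` -/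
noncomputable def MS.hh {n : ℕ} {A : Type*} [Group A] (M : MS n A) (i : ℤ) {F : Type*} [One F] (x : F → A) (t : F) : A :=
  (M.mu i (x 1))⁻¹ * M.mu i (x t)

namespace QR
variable {n : ℕ} {A : Type*} [Group A] {M : MS n A} {i j : ℤ} {Y Y' V V₀ V' V₀' : Subgroup A} {F : Type*} [Field F]
  {x : F → A} (c : QR M i Y V V₀ F x) (D : M.QRD i Y Y' V V₀ V' V₀') {s t : F} {u v w g : A}
include c D

theorem x_mem (t : F) : x t ∈ M.U i := by
  exact D.le (c.toPar.mem' t)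

theorem x_ne (h : t ≠ 0) : x t ≠ 1 := by
  exact fun e => h (c.toPar.eq_one.1 e)

theorem hh_T (h : t ≠ 0) : M.T 0 (M.hh i x t) := by
  exact MS.mu_T (c.x_mem D 1) (c.x_ne D one_ne_zero) (c.x_mem D t) (c.x_ne D h)

theorem sm_eq (h : t ≠ 0) : M.sm i x t v = M.hh i x t * v * (M.hh i x t)⁻¹ := by
  rw [MS.sm, MS.hh, MS.ph_eq (c.x_ne D h)]; group

theorem sm_zero : M.sm i x 0 v = 1 := by
  simp [MS.sm, c.toPar.zero]

theorem sm_one : M.sm i x 1 v = v := by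
  rw [MS.sm, MS.ph_eq (c.x_ne D one_ne_zero)]; group

theorem sm_hom : M.sm i x t (v * w) = M.sm i x t v * M.sm i x t w := by
  rw [MS.sm, MS.sm, MS.sm, MS.ph_mul]; group

theorem ph_sm : M.ph i (x 1) (M.sm i x t v) = M.ph i (x t) v := by
  rw [MS.sm, MS.ph_eq (c.x_ne D one_ne_zero)]; group

theorem sm_ph (t : F) (v : A) : M.sm i x t v = M.ph i (x (-1)) (M.ph i (x t) v) := by
  rw [MS.sm, c.toPar.neg, MS.ph_eq (inv_ne_one.2 (c.x_ne D one_ne_zero)), MS.mu_inv (c.x_mem D 1), inv_inv]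

theorem ph_neg_ph (h : t ≠ 0) (v : A) : M.ph i (x (-t)) (M.ph i (x t) v) = v := by
  rw [c.toPar.neg, MS.ph_inv_ph (c.x_mem D t) (c.x_ne D h)]

theorem ph_ph_neg (h : t ≠ 0) (v : A) : M.ph i (x t) (M.ph i (x (-t)) v) = v := by
  rw [c.toPar.neg, MS.ph_ph_inv (c.x_mem D t) (c.x_ne D h)]

theorem hh_conj (h : t ≠ 0) (v : A) :
    M.hh i x t * v * (M.hh i x t)⁻¹ = M.ph i (x (-1)) (M.ph i (x t) v) := by
  rw [← c.sm_eq D h, c.sm_ph D]

theorem ph_V (t : F) (hv : v ∈ V) : M.ph i (x t) v ∈ V' := (D.conj _ (c.toPar.mem' t)).1 v hv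

theorem ph_V' (t : F) (hv : v ∈ V') : M.ph i (x t) v ∈ V := (D.conj _ (c.toPar.mem' t)).2.2.1 v hv

theorem ph_V₀ (t : F) (hv : v ∈ V₀) : M.ph i (x t) v ∈ V₀' := (D.conj _ (c.toPar.mem' t)).2.1 v hv

theorem ph_V₀' (t : F) (hv : v ∈ V₀') : M.ph i (x t) v ∈ V₀ := (D.conj _ (c.toPar.mem' t)).2.2.2 v hv

theorem sm_mem (hv : v ∈ V) : M.sm i x t v ∈ V := by
  rw [c.sm_ph D]
  exact c.ph_V' D _ (c.ph_V D _ hv)

theorem sm_mem₀ (hv : v ∈ V₀) : M.sm i x t v ∈ V₀ := by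
  rw [c.sm_ph D]
  exact c.ph_V₀' D _ (c.ph_V₀ D _ hv)

theorem sm_mem_U (hv : v ∈ M.U j) : M.sm i x t v ∈ M.U j := by
  by_cases h : t = 0
  · rw [h, c.sm_zero D]; exact one_mem _
  rw [c.sm_eq D h]
  exact MS.T_mem (c.hh_T D h) hv ⟨0, by ring⟩

theorem sm_add (hv : v ∈ V) : (M.sm i x (s + t) v)⁻¹ * (M.sm i x s v * M.sm i x t v) ∈ V₀ := by
  rw [c.sm_ph D, c.sm_ph D, c.sm_ph D, ← MS.ph_mul, ← MS.ph_inv, ← MS.ph_mul, c.add]
  exact c.ph_V₀' D _ (D.add _ (c.toPar.mem' s) _ (c.toPar.mem' t) v hv)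

end QR

/-- `V / V₀` as a vector space -/
theorem QR.exists_mod.{w} {n : ℕ} {A : Type w} [Group A] {M : MS n A} {i : ℤ} {Y Y' V V₀ V' V₀' : Subgroup A}
    {F : Type*} [Field F] {x : F → A} (c : QR M i Y V V₀ F x) (D : M.QRD i Y Y' V V₀ V' V₀') :
    ∃ (W : Type w) (_ : AddCommGroup W) (_ : Module F W) (q : A → W), QQ V V₀ q ∧
      ∀ t, ∀ v ∈ V, q (M.sm i x t v) = t • q v := by
  obtain ⟨W, _, q, hq⟩ := exists_QQ D.comm
  have hl : ∀ t : F, ∃ φ : AddMonoid.End W, ∀ v ∈ V, φ (q v) = q (M.sm i x t v) := fun t =>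
    hq.lift (fun v => q (M.sm i x t v))
      (fun a ha b hb => by rw [c.sm_hom D, hq.mul _ (c.sm_mem D ha) _ (c.sm_mem D hb)])
      fun a ha h0 => (hq.zero _ (c.sm_mem D ha)).2 (c.sm_mem₀ D h0)
  choose S hS using hl
  have hext : ∀ {φ ψ : AddMonoid.End W}, (∀ v ∈ V, φ (q v) = ψ (q v)) → φ = ψ := hq.ext
  let ρ : F →+* AddMonoid.End W :=
    { toFun := S
      map_one' := hext fun v hv => by rw [hS 1 v hv, c.sm_one D]; rfl
      map_mul' := fun s t => hext fun v hv => by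
        change _ = S s (S t (q v))
        rw [hS _ v hv, hS _ v hv, hS _ _ (c.sm_mem D hv),
          ← hq.eq_iff (c.sm_mem D hv) (c.sm_mem D (c.sm_mem D hv))]
        exact c.mul s t v hv
      map_zero' := hext fun v hv => by rw [hS 0 v hv, c.sm_zero D, hq.one]; rfl
      map_add' := fun s t => hext fun v hv => by
        change _ = S s (q v) + S t (q v)
        rw [hS _ v hv, hS _ v hv, hS _ v hv, ← hq.mul _ (c.sm_mem D hv) _ (c.sm_mem D hv),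
          ← hq.eq_iff (c.sm_mem D hv) (mul_mem (c.sm_mem D hv) (c.sm_mem D hv))]
        exact c.sm_add D hv }
  exact ⟨W, inferInstance, Module.compHom W ρ, q, hq, fun t v hv => (hS t v hv).symm⟩

namespace QR
variable {n : ℕ} {A : Type*} [Group A] {M : MS n A} {i j : ℤ} {Y Y' V V₀ V' V₀' : Subgroup A} {F : Type*} [Field F]
  {x : F → A} (c : QR M i Y V V₀ F x) (D : M.QRD i Y Y' V V₀ V' V₀') {s t : F} {u v w g : A}
include c D

section modl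
variable {W : Type*} [AddCommGroup W] [Module F W] {q : A → W}
  (hs : ∀ t, ∀ v ∈ V, q (M.sm i x t v) = t • q v)
include hs

theorem q_ph (t : F) (hv : v ∈ V) : q (M.ph i (x (-1)) (M.ph i (x t) v)) = t • q v := by
  rw [← c.sm_ph D, hs t v hv]

theorem q_ph_ph (s t : F) (hq : QQ V V₀ q) (hv : v ∈ V) :
    q (M.ph i (x s) (M.ph i (x t) v)) = (-(s⁻¹ * t)) • q v := by
  by_cases h : s = 0
  · simp [h, c.toPar.zero, hq.one]
  have h1 := c.q_ph D hs (-s) (c.ph_V' D s (c.ph_V D t hv))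
  rw [c.ph_neg_ph D h, c.q_ph D hs t hv] at h1
  rw [neg_smul, mul_smul, h1, smul_smul, mul_neg, inv_mul_cancel₀ h, neg_smul, one_smul, neg_neg]

end modl

theorem sm_neg (hv : v ∈ V) : M.sm i x (-t) v * M.sm i x t v ∈ V₀ := by
  simpa [c.sm_zero D] using c.sm_add D (s := -t) (t := t) hv

theorem sm_inj (hv : v ∈ V) (h0 : v ∉ V₀) (h : (M.sm i x s v)⁻¹ * M.sm i x t v ∈ V₀) : s = t := by
  obtain ⟨W, _, _, q, hq, hs⟩ := c.exists_mod D
  rw [hq.eq_iff (c.sm_mem D hv) (c.sm_mem D hv), hs s v hv, hs t v hv] at h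
  exact smul_left_injective F (fun e => h0 ((hq.zero v hv).1 e)) h

/-- `μ(x 1)²` inverts `V / V₀` -/
theorem ph_ph (hv : v ∈ V) : M.ph i (x 1) (M.ph i (x 1) v) * v ∈ V₀ := by
  obtain ⟨W, _, _, q, hq, hs⟩ := c.exists_mod D
  rw [hq.mul_iff (c.ph_V' D _ (c.ph_V D _ hv)) hv, c.q_ph_ph D hs 1 1 hq hv]
  simp

theorem mem_V₀' (hv : v ∈ V') (h : M.ph i (x (-1)) v ∈ V₀) : v ∈ V₀' := by
  have := c.ph_V₀ D 1 h
  rwa [c.ph_ph_neg D one_ne_zero] at this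

/-- `h_t` acts on `V' / V₀'` as `t⁻¹` -/
theorem hh_ph (h : t ≠ 0) (hv : v ∈ V) :
    (M.hh i x t * M.ph i (x 1) v * (M.hh i x t)⁻¹)⁻¹ * M.ph i (x t⁻¹) v ∈ V₀' := by
  obtain ⟨W, _, _, q, hq, hs⟩ := c.exists_mod D
  have h1 := c.ph_V' D t (c.ph_V D 1 hv)
  rw [c.hh_conj D h]
  refine c.mem_V₀' D (mul_mem (inv_mem (c.ph_V D _ h1)) (c.ph_V D _ hv)) ?_
  rw [MS.ph_mul, MS.ph_inv, hq.eq_iff (c.ph_V' D _ (c.ph_V D _ h1)) (c.ph_V' D _ (c.ph_V D _ hv)),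
    c.q_ph D hs _ h1, c.q_ph D hs _ hv, c.q_ph_ph D hs t 1 hq hv]
  simp

/-- `h_t` acts on `Y` as `t⁻²` -/
theorem hh_x (h : t ≠ 0) (s : F) : M.hh i x t * x s * (M.hh i x t)⁻¹ = x (t⁻¹ ^ 2 * s) := by
  obtain ⟨W, _, _, q, hq, hs⟩ := c.exists_mod D
  obtain ⟨v, hv, hv0⟩ := hq.exists_ne D.lt
  have h1 : M.hh i x t * x s * (M.hh i x t)⁻¹ ∈ Y := by
    rw [c.hh_conj D h]
    exact (D.conjY _ (c.toPar.mem' _)).2 _ ((D.conjY _ (c.toPar.mem' _)).1 _ (c.toPar.mem' s))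
  obtain ⟨r, hr⟩ := (c.mem _).1 h1
  have h2 := MS.T_ph (j := i) (v := v) (c.hh_T D h) (c.x_mem D s) ⟨0, by ring⟩
  rw [hr, c.hh_conj D h, ← c.sm_eq D h] at h2
  have h3 := c.q_ph D hs r (c.sm_mem D (t := t) hv)
  rw [← h2, c.q_ph D hs _ (c.ph_V' D t (c.ph_V D s hv)), c.q_ph_ph D hs t s hq hv, hs t v hv, smul_smul,
    smul_smul] at h3
  have h4 := smul_left_injective F hv0 h3
  rw [hr]
  congr 1
  field_simp at h4 ⊢
  linear_combination -h4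

theorem ph_x (h : s ≠ 0) (t : F) : M.ph i (x s) (x t) = M.ph i (x 1) (x (s⁻¹ ^ 2 * t)) := by
  rw [← c.hh_x D h, c.hh_conj D h, c.ph_ph_neg D one_ne_zero]

theorem ph_opp_eq (t : F) (v : A) :
    M.ph (i + n) (M.ph i (x 1) (x t)) (M.ph i (x 1) v) = M.ph i (x 1) (M.ph i (x t) v) := by
  have h1 := c.x_ne D (one_ne_zero (α := F))
  rw [MS.ph_eq h1, MS.ph_eq h1, MS.ph_eq h1]
  exact (MS.R_ph (MS.mu_R (c := 2 * i + n) (c.x_mem D 1) h1 ⟨0, by ring⟩) (c.x_mem D t) ⟨0, by ring⟩).symm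

/-- an element of `Y'` is determined by its action -/
theorem eq_of_ph' (hu : u ∈ Y') (hw : w ∈ Y')
    (h : ∀ v ∈ V, (M.ph (i + n) u (M.ph i (x 1) v))⁻¹ * M.ph (i + n) w (M.ph i (x 1) v) ∈ V₀) : u = w := by
  obtain ⟨W, _, _, q, hq, hs⟩ := c.exists_mod D
  obtain ⟨v, hv, hv0⟩ := hq.exists_ne D.lt
  have hm : ∀ y ∈ Y', M.ph (i + n) y (M.ph i (x 1) v) ∈ V := fun y hy => by
    rw [← MS.ph_la' (D.le' hy)]
    exact (D.conj _ (D.la_mem' y hy)).2.2.1 _ (c.ph_V D 1 hv)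
  have hd := mul_mem (inv_mem hu) hw
  have h1 := D.add' u hu _ hd _ (c.ph_V D 1 hv)
  rw [mul_inv_cancel_left, hq.eq_iff (hm w hw) (mul_mem (hm u hu) (hm _ hd)), hq.mul _ (hm u hu) _ (hm _ hd),
    (hq.eq_iff (hm u hu) (hm w hw)).1 (h v hv), left_eq_add, ← MS.ph_la' (D.le' hd)] at h1
  obtain ⟨r, hr⟩ := (c.mem _).1 (D.la_mem' _ hd)
  rw [hr, c.q_ph_ph D hs r 1 hq hv, smul_eq_zero_iff_left hv0] at h1
  by_contra hne
  refine MS.la_ne (D.le' hd) (by rwa [Ne, inv_mul_eq_one]) ?_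
  rw [hr, c.toPar.eq_one]
  simpa using h1

theorem la_x (h : t ≠ 0) : M.la i (x t) = M.ph i (x 1) (x t⁻¹) := by
  obtain ⟨W, _, _, q, hq, hs⟩ := c.exists_mod D
  refine c.eq_of_ph' D (D.la_mem _ (c.toPar.mem' t)) ((D.conjY _ (c.toPar.mem' 1)).1 _ (c.toPar.mem' _))
    fun v hv => ?_
  rw [MS.ph_la (c.x_mem D t), c.ph_opp_eq D, hq.eq_iff (c.ph_V' D _ (c.ph_V D _ hv)) (c.ph_V' D _ (c.ph_V D _ hv)),
    c.q_ph_ph D hs _ _ hq hv, c.q_ph_ph D hs _ _ hq hv]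
  simp

theorem ka_x (h : t ≠ 0) : M.ka i (x t) = M.ph i (x 1) (x t⁻¹) := by
  rw [← inv_inj, ← MS.la_inv (c.x_mem D t), ← c.toPar.neg, c.la_x D (neg_ne_zero.2 h), ← MS.ph_inv, ← c.toPar.neg,
    inv_neg]

theorem ph_ph_x (t : F) : M.ph i (x 1) (M.ph i (x 1) (x t)) = x t := by
  have h := c.ph_x D (neg_ne_zero.2 one_ne_zero) t
  rw [show (-1 : F)⁻¹ ^ 2 * t = t by simp] at h
  rw [← h, c.ph_ph_neg D one_ne_zero]

theorem la_eq (hu : u ∈ Y) : M.la i u = (M.mu i u)⁻¹ * u * M.mu i u ∧ M.la i u = M.ph i u u ∧ M.ka i u = M.la i u := by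
  obtain ⟨t, rfl⟩ := (c.mem u).1 hu
  by_cases h : t = 0
  · simp [h, c.toPar.zero]
  refine ⟨?_, ?_, by rw [c.ka_x D h, c.la_x D h]⟩
  · have h1 := c.ph_x D (neg_ne_zero.2 h) t
    rw [c.toPar.neg, MS.ph_eq (inv_ne_one.2 (c.x_ne D h)), MS.mu_inv (c.x_mem D t), inv_inv] at h1
    rw [h1, c.la_x D h]
    congr 2
    field_simp
  · rw [c.ph_x D h, c.la_x D h]
    congr 2
    field_simp

theorem ph_opp (hv : v ∈ V) :
    M.ph (i + n) (M.ph i (x 1) (x t)) (M.ph i (x 1) v) * M.sm i x t v ∈ V₀ := by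
  obtain ⟨W, _, _, q, hq, hs⟩ := c.exists_mod D
  rw [c.ph_opp_eq D, hq.mul_iff (c.ph_V' D _ (c.ph_V D _ hv)) (c.sm_mem D hv), c.q_ph_ph D hs _ _ hq hv, hs t v hv]
  simp

/-- the elements that fix the apartment act semilinearly -/
theorem semi [Finite A] (hg : M.T 0 g) (h1 : ∀ u ∈ Y, g * u * g⁻¹ ∈ Y) (h2 : ∀ v ∈ V, g * v * g⁻¹ ∈ V)
    (h3 : ∀ v ∈ V₀, g * v * g⁻¹ ∈ V₀) : ∃ (a : F) (α : F →+* F), a ≠ 0 ∧ (∀ t, g * x t * g⁻¹ = x (a * α t)) ∧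
      ∀ t, ∀ v ∈ V, (g * M.sm i x t v * g⁻¹)⁻¹ * M.sm i x (α t) (g * v * g⁻¹) ∈ V₀ := by
  obtain ⟨W, _, _, q, hq, hs⟩ := c.exists_mod D
  choose γ hγ using fun t => (c.mem _).1 (h1 _ (c.toPar.mem' t))
  have ha : γ 1 ≠ 0 := fun e => c.x_ne D one_ne_zero (by simpa [e, c.toPar.zero] using hγ 1)
  have key : ∀ t, ∀ v ∈ V, q (g * M.sm i x t v * g⁻¹) = ((γ 1)⁻¹ * γ t) • q (g * v * g⁻¹) := by
    intro t v hv
    have k1 := MS.T_ph (j := i) (v := v) hg (c.x_mem D t) ⟨0, by ring⟩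
    have k2 := MS.T_ph (j := i) (v := M.sm i x t v) hg (c.x_mem D 1) ⟨0, by ring⟩
    rw [c.ph_sm D, k1, hγ, hγ] at k2
    have k3 := c.q_ph D hs (γ t) (h2 v hv)
    rw [k2, c.q_ph D hs _ (h2 _ (c.sm_mem D hv))] at k3
    rw [mul_smul, ← k3, inv_smul_smul₀ ha]
  obtain ⟨v, hv, hv0⟩ := SetLike.exists_of_lt D.lt
  have hv1 : q (g * v * g⁻¹) ≠ 0 := fun e => hv0 ((Subgroup.mem_normalizer_iff.1
    (Subgroup.mem_normalizer_fintype (S := (V₀ : Set A)) h3) v).2 ((hq.zero _ (h2 v hv)).1 e))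
  have hadd : ∀ s t, γ (s + t) = γ s + γ t := fun s t => c.inj (by
    rw [c.add, ← hγ, ← hγ, ← hγ, c.add]; group)
  let α : F →+* F :=
    { toFun := fun t => (γ 1)⁻¹ * γ t
      map_one' := inv_mul_cancel₀ ha
      map_mul' := fun s t => smul_left_injective F hv1 (by
        have k := h3 _ (c.mul s t v hv)
        rw [show g * ((M.sm i x (s * t) v)⁻¹ * M.sm i x s (M.sm i x t v)) * g⁻¹ =
          (g * M.sm i x (s * t) v * g⁻¹)⁻¹ * (g * M.sm i x s (M.sm i x t v) * g⁻¹) by group,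
          hq.eq_iff (h2 _ (c.sm_mem D hv)) (h2 _ (c.sm_mem D (c.sm_mem D hv))), key _ v hv,
          key _ _ (c.sm_mem D hv), key _ v hv, smul_smul] at k
        exact k)
      map_zero' := by
        have := hadd 0 0
        rw [add_zero, left_eq_add] at this
        rw [this, mul_zero]
      map_add' := fun s t => by rw [hadd, mul_add] }
  refine ⟨γ 1, α, ha, fun t => ?_, fun t v hv => ?_⟩
  · rw [hγ]
    exact congrArg x (mul_inv_cancel_left₀ ha _).symm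
  · rw [hq.eq_iff (h2 _ (c.sm_mem D hv)) (c.sm_mem D (h2 v hv)), key t v hv, hs _ _ (h2 v hv)]
    rfl

end QR

/-! The case `V₀ = V₀' = 1`. -/

namespace QR
variable {n : ℕ} {A : Type*} [Group A] {M : MS n A} {i : ℤ} {Y Y' V V' : Subgroup A} {F : Type*} [Field F]
  {x : F → A} (c : QR M i Y V ⊥ F x) (D : M.QRD i Y Y' V ⊥ V' ⊥) {s t : F} {u v w g : A}
include c D

theorem sm_mul' (hv : v ∈ V) : M.sm i x (s * t) v = M.sm i x s (M.sm i x t v) := by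
  exact inv_mul_eq_one.1 (c.mul s t v hv)

theorem sm_add' (hv : v ∈ V) : M.sm i x (s + t) v = M.sm i x s v * M.sm i x t v := by
  exact inv_mul_eq_one.1 (c.sm_add D hv)

theorem sm_neg' (hv : v ∈ V) : M.sm i x (-t) v = (M.sm i x t v)⁻¹ := by
  exact eq_inv_of_mul_eq_one_left (c.sm_neg D hv)

theorem sm_inj' (hv : v ∈ V) (h0 : v ≠ 1) (h : M.sm i x s v = M.sm i x t v) : s = t := by
  exact c.sm_inj D hv h0 (inv_mul_eq_one.2 h)

theorem ph_ph' (hv : v ∈ V) : M.ph i (x 1) (M.ph i (x 1) v) = v⁻¹ := by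
  exact eq_inv_of_mul_eq_one_left (c.ph_ph D hv)

theorem hh_ph' (h : t ≠ 0) (hv : v ∈ V) :
    M.hh i x t * M.ph i (x 1) v * (M.hh i x t)⁻¹ = M.ph i (x t⁻¹) v := by
  exact inv_mul_eq_one.1 (c.hh_ph D h hv)

theorem ph_opp' (hv : v ∈ V) : M.ph (i + n) (M.ph i (x 1) (x t)) (M.ph i (x 1) v) = M.sm i x (-t) v := by
  rw [c.sm_neg' D hv]
  exact eq_inv_of_mul_eq_one_left (c.ph_opp D hv)

theorem semi' [Finite A] (hg : M.T 0 g) (h1 : ∀ u ∈ Y, g * u * g⁻¹ ∈ Y) (h2 : ∀ v ∈ V, g * v * g⁻¹ ∈ V) :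
    ∃ (a : F) (α : F →+* F), a ≠ 0 ∧ (∀ t, g * x t * g⁻¹ = x (a * α t)) ∧
      ∀ t, ∀ v ∈ V, g * M.sm i x t v * g⁻¹ = M.sm i x (α t) (g * v * g⁻¹) := by
  obtain ⟨a, α, k1, k2, k3⟩ := c.semi D hg h1 h2 fun v hv => by simp [Subgroup.mem_bot.1 hv]
  exact ⟨a, α, k1, k2, fun t v hv => inv_mul_eq_one.1 (k3 t v hv)⟩

/-- an invariant subgroup of order `|F|` is a line -/
theorem par_sm [Finite A] {L : Subgroup A} (hL : L ≤ V) (h : ∀ t, ∀ v ∈ L, M.sm i x t v ∈ L)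
    (hc : Nat.card L ≤ Nat.card F) (hv : v ∈ L) (h0 : v ≠ 1) : Par L F fun t => M.sm i x t v := by
  refine ⟨fun s t => c.sm_add' D (hL hv), fun s t e => c.sm_inj' D (hL hv) h0 e, fun u => ⟨fun hu => ?_, ?_⟩⟩
  · have hi : Function.Injective fun t : F => (⟨M.sm i x t v, h t v hv⟩ : L) := fun s t e =>
      c.sm_inj' D (hL hv) h0 (congrArg Subtype.val e)
    obtain ⟨t, ht⟩ := (hi.bijective_of_nat_card_le hc).2 ⟨u, hu⟩
    exact ⟨t, (congrArg Subtype.val ht).symm⟩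
  · rintro ⟨t, rfl⟩
    exact h t v hv

theorem card_le [Finite A] {L : Subgroup A} (hL : L ≤ V) (h : ∀ t, ∀ v ∈ L, M.sm i x t v ∈ L) (h0 : L ≠ ⊥) :
    Nat.card F ≤ Nat.card L := by
  obtain ⟨⟨v, hv⟩, h1⟩ := Subgroup.ne_bot_iff_exists_ne_one.1 h0
  exact Nat.card_le_card_of_injective (fun t : F => (⟨M.sm i x t v, h t v hv⟩ : L)) fun s t e =>
    c.sm_inj' D (hL hv) (fun k => h1 (Subtype.ext k)) (congrArg Subtype.val e)

end QR

/-- an invariant subgroup as a vector space -/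
theorem QR.exists_module.{v} {n : ℕ} {A : Type v} [Group A] {M : MS n A} {i : ℤ} {Y Y' V V' : Subgroup A} {F : Type*}
    [Field F] {x : F → A} (c : QR M i Y V ⊥ F x) (D : M.QRD i Y Y' V ⊥ V' ⊥) {L : Subgroup A} (hL : L ≤ V)
    (h : ∀ t, ∀ v ∈ L, M.sm i x t v ∈ L) : ∃ (J : Type v) (_ : AddCommGroup J) (_ : Module F J) (y : J → A),
      Par L J y ∧ ∀ (t : F) a, y (t • a) = M.sm i x t (y a) := by
  obtain ⟨W, _, _, q, hq, hs⟩ := c.exists_mod D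
  let J : Submodule F W :=
    { carrier := {w | ∃ a ∈ L, q a = w}
      zero_mem' := ⟨1, one_mem _, hq.one⟩
      add_mem' := by
        rintro _ _ ⟨a, ha, rfl⟩ ⟨b, hb, rfl⟩
        exact ⟨_, mul_mem ha hb, hq.mul a (hL ha) b (hL hb)⟩
      smul_mem' := by
        rintro t _ ⟨a, ha, rfl⟩
        exact ⟨_, h t a ha, hs t a (hL ha)⟩ }
  have hy : ∀ w : J, ∃ a ∈ L, q a = w := fun w => w.2
  choose y hy hy' using hy
  have hi : ∀ a ∈ L, ∀ b ∈ L, q a = q b → a = b := fun a ha b hb e =>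
    inv_mul_eq_one.1 ((hq.eq_iff (hL ha) (hL hb)).2 e)
  refine ⟨J, inferInstance, inferInstance, y, ⟨fun a b => hi _ (hy _) _ (mul_mem (hy _) (hy _)) ?_,
    fun a b e => Subtype.ext ?_, fun u => ⟨fun hu => ⟨⟨q u, u, hu, rfl⟩, hi _ hu _ (hy _) (hy' ⟨q u, u, hu, rfl⟩).symm⟩, ?_⟩⟩,
    fun t a => hi _ (hy _) _ (h t _ (hy a)) ?_⟩
  · rw [hq.mul _ (hL (hy _)) _ (hL (hy _)), hy', hy', hy']; rfl
  · rw [← hy', ← hy', e]
  · rintro ⟨a, rfl⟩; exact hy a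
  · rw [hs t _ (hL (hy a)), hy', hy']; rfl

end CfsgLib.MP
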