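import Cfsg.Agent.Lib.MP.QE
import Cfsg.Agent.Lib.MP.QS

/-!
# Package N3: triangles (see `plans/MP.md`)
-/

set_option autoImplicit false

namespace CfsgLib.MP
open Cfsg CfsgLib.Tits MulAction
open scoped commutatorElement

variable {A A' : Type*} [Group A] [Finite A] [Group A'] [Finite A']

namespace MS

section
omit [Finite A]
variable {M : MS 3 A} {i j : ℤ} {u u' v : A}

theorem n3_lst (hu : u ∈ M.U i) (hv : v ∈ M.U j) (e : j = i - 2) : u * v * u⁻¹ = v * M.ph i u v := by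
  obtain ⟨g, hg, h⟩ := lst hu hv (by omega)
  rw [h, Iv_empty hg (by omega), mul_one]

theorem n3_fst (hu : u ∈ M.U i) (hv : v ∈ M.U j) (e : j = i + 2) : u * v * u⁻¹ = M.ph i u v * v := by
  obtain ⟨g, hg, h⟩ := fst hu hv (by omega)
  rw [h, Iv_empty hg (by omega), mul_one]

theorem n3_commute (hu : u ∈ M.U i) (hv : v ∈ M.U i) : Commute u v := by
  obtain ⟨z, hz, h1⟩ := M.exists_ne (i + 1)
  obtain ⟨w, hw, rfl⟩ := ph_surj (j := i - 1) hz h1 hv ⟨1, by push_cast; ring⟩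
  rw [← inv_mul_cancel_left w (M.ph (i + 1) z w), ← n3_lst hz hw (by ring)]
  have a1 := commute_adj hu hw (.inr rfl)
  have a2 := commute_adj hu hz (.inl rfl)
  exact a1.inv_right.mul_right ((a2.mul_right a1).mul_right a2.inv_right)

theorem n3_add (hu : u ∈ M.U i) (hu' : u' ∈ M.U i) (hv : v ∈ M.U j) (e : j = i - 2) :
    M.ph i (u * u') v = M.ph i u v * M.ph i u' v := by
  have h1 := commute_adj hu (ph_mem (k := i - 1) hu' hv ⟨1, by push_cast; omega⟩) (.inr rfl)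
  refine mul_left_cancel (a := v) ?_
  rw [← n3_lst (mul_mem hu hu') hv e, ← mul_assoc, ← n3_lst hu hv e, mul_inv_rev,
    show u * u' * v * (u'⁻¹ * u⁻¹) = u * (u' * v * u'⁻¹) * u⁻¹ by group, n3_lst hu' hv e, mul_assoc (u * v),
    h1.inv_left.eq]
  group

theorem n3_add' (hu : u ∈ M.U i) (hu' : u' ∈ M.U i) (hv : v ∈ M.U j) (e : j = i + 2) :
    M.ph i (u * u') v = M.ph i u v * M.ph i u' v := by
  have a1 := ph_mem (k := i + 1) hu hv ⟨0, by push_cast; omega⟩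
  have a2 := ph_mem (k := i + 1) hu' hv ⟨0, by push_cast; omega⟩
  have h1 := commute_adj hu a2 (.inl rfl)
  refine mul_right_cancel (b := v) ?_
  rw [← n3_fst (mul_mem hu hu') hv e, (n3_commute a1 a2).eq, mul_assoc (M.ph i u' v), ← n3_fst hu hv e, mul_inv_rev,
    show u * u' * v * (u'⁻¹ * u⁻¹) = u * (u' * v * u'⁻¹) * u⁻¹ by group, n3_fst hu' hv e, ← mul_assoc u, h1.eq]
  group

theorem n3_qrd (M : MS 3 A) : M.QRD 3 (M.U 3) (M.U 6) (M.U 1) ⊥ (M.U 2) ⊥ where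
  le := le_rfl
  le' := le_rfl
  la_mem _ _ := la_mem (by norm_num)
  la_mem' _ _ := la_mem (by norm_num)
  conjY _ hu := ⟨fun _ hy => ph_mem hu hy (by norm_num), fun _ hy => ph_mem hu hy (by norm_num)⟩
  lt := bot_lt_iff_ne_bot.2 (M.nontriv 1)
  le₀ := bot_le
  comm _ ha _ hb := (n3_commute ha hb).commutator_eq
  comm' _ ha _ hb := (n3_commute ha hb).commutator_eq
  conj _ hu := ⟨fun _ hy => ph_mem hu hy (by norm_num), fun _ hy => ph_eq_one.2 (.inr hy),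
    fun _ hy => ph_mem hu hy (by norm_num), fun _ hy => ph_eq_one.2 (.inr hy)⟩
  add u hu u' hu' v hv := by rw [n3_add hu hu' hv (by norm_num), inv_mul_cancel]; exact one_mem _
  add' u hu u' hu' v hv := by
    rw [n3_add' (i := 3 + (3 : ℕ)) (j := 8) hu hu' (M.U_eq (i := 2) (j := 8) (by norm_num) ▸ hv) (by norm_num),
      inv_mul_cancel]
    exact one_mem _

end

end MS

theorem exists_c3 (M : MS 3 A) : ∃ (F : Type) (_ : Field F) (_ : Fintype F) (x y z : F → A),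
    Par (M.U 1) F x ∧ Par (M.U 2) F y ∧ Par (M.U 3) F z ∧ ∀ s t, ⁅z t, x s⁆ = y (s * t) := by
  obtain ⟨e₃, h3, h3'⟩ := M.exists_ne 3
  obtain ⟨e, h1, h1'⟩ := M.exists_ne 1
  have D := M.n3_qrd
  obtain ⟨F, _, _, z, c, -⟩ := D.exists_qr h3 h3'
  have px := c.par_sm D le_rfl (fun _ _ => c.sm_mem D)
    ((MS.card_eq (.inr (by decide))).trans c.toPar.card).le h1 h1'
  have hz := c.x_ne D one_ne_zero
  refine ⟨F, inferInstance, inferInstance, _, _, z, px,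
    px.conj fun _ => MS.R_mem_iff (MS.mu_R (c := 9) (c.x_mem D 1) hz (by norm_num)) (by norm_num), c.toPar,
    fun s t => ?_⟩
  rw [commutatorElement_def, MS.n3_lst (c.x_mem D t) (px.mem' s) (by norm_num),
    (MS.commute_adj (px.mem' s) (MS.ph_mem (k := 2) (c.x_mem D t) (px.mem' s) (by norm_num)) (by norm_num)).eq,
    mul_inv_cancel_right, ← c.ph_sm D, ← c.sm_mul' D h1, mul_comm t, MS.ph_eq hz]

theorem par3 (M : MS 3 A) : ∃ (F : Type) (_ : Field F) (_ : Fintype F), ∀ i, Nat.card (M.U i) = Nat.card F := by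
  obtain ⟨F, _, _, x, -, -, h, -⟩ := exists_c3 M
  exact ⟨F, inferInstance, inferInstance, fun _ => (MS.card_eq (.inr (by decide))).trans h.card⟩

theorem link3 (M : MS 3 A) (M' : MS 3 A') (h : Nat.card (M.U 1) = Nat.card (M'.U 1)) : Link 3 M.U M'.U := by
  obtain ⟨F, _, _, x, y, z, hx, hy, hz, r⟩ := exists_c3 M
  obtain ⟨F', _, _, x', y', z', hx', hy', hz', r'⟩ := exists_c3 M'
  have ψ : F ≃+* F' := FiniteField.ringEquivOfCardEq (by
    rw [← Nat.card_eq_fintype_card, ← Nat.card_eq_fintype_card, ← hx.card, h, hx'.card])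
  obtain ⟨Γ1, g1, m1⟩ := hx.exists_gr (hx'.comp ψ.toAddEquiv)
  obtain ⟨Γ2, g2, m2⟩ := hy.exists_gr (hy'.comp ψ.toAddEquiv)
  obtain ⟨Γ3, g3, m3⟩ := hz.exists_gr (hz'.comp ψ.toAddEquiv)
  have k : ∀ {i : ℤ} {Γ Γ' : Subgroup (A × A')}, Gr (M.U i) (M'.U i) Γ → Gr (M.U (i + 1)) (M'.U (i + 1)) Γ' →
      ∀ u ∈ Γ, ∀ v ∈ Γ', ⁅u, v⁆ = 1 := fun g g' u hu v hv =>
    Prod.ext (MS.commute_adj (g.le hu).1 (g'.le hv).1 (.inl rfl)).commutator_eq
      (MS.commute_adj (g.le hu).2 (g'.le hv).2 (.inl rfl)).commutator_eq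
  refine ⟨fun i => if i = 1 then Γ1 else if i = 2 then Γ2 else Γ3, fun i h1 h2 => ?_, fun i j h1 h2 h3 u hu v hv => ?_⟩
  · obtain rfl | rfl | rfl : i = 1 ∨ i = 2 ∨ i = 3 := by omega
    exacts [g1, g2, g3]
  · obtain ⟨rfl, rfl⟩ | ⟨rfl, rfl⟩ | ⟨rfl, rfl⟩ : i = 1 ∧ j = 2 ∨ i = 2 ∧ j = 3 ∨ i = 1 ∧ j = 3 := by omega
    · rw [k g1 g2 u hu v hv]
      exact one_mem _
    · rw [k g2 g3 u hu v hv]
      exact one_mem _
    · obtain ⟨s, rfl⟩ := (m1 u).1 hu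
      obtain ⟨t, rfl⟩ := (m3 v).1 hv
      rw [← inv_mem_iff, commutatorElement_inv]
      refine mem_Iv (k := 2) ((m2 _).2 ⟨s * t, Prod.ext (r s t) ?_⟩) (by norm_num) (by norm_num)
      exact (r' (ψ s) (ψ t)).trans (congrArg y' (map_mul ψ s t).symm)

end CfsgLib.MP
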