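import Cfsg.Agent.Lib.MP.Seq

/-!
# Package Q4A: quadrangles, the groups `Y i` (see `plans/MP.md`)
-/

set_option autoImplicit false

namespace CfsgLib.MP
open Cfsg CfsgLib.Tits MulAction
open scoped commutatorElement

namespace MS
variable {A : Type*} [Group A] {M : MS 4 A} {c i j k : ℤ} {u v y g : A}

theorem U_mem4 (hu : u ∈ M.U i) (e : (8 : ℤ) ∣ i - j) : u ∈ M.U j := M.U_eq (i := i) (j := j) e ▸ hu

theorem mem_Y : y ∈ M.Y i ↔ y ∈ M.U i ∧ ∀ v ∈ M.U (i + 2), Commute y v :=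
  ⟨fun h => ⟨h.1, fun v hv => (h.2 v hv).symm⟩, fun h => ⟨h.1, fun v hv => (h.2 v hv).symm⟩⟩

theorem q4_conj (u v : A) : u * v * u⁻¹ = ⁅u, v⁆ * v := by rw [commutatorElement_def]; group

theorem q4_comm (h : u * v * u⁻¹ = v) : Commute u v := mul_inv_eq_iff_eq_mul.1 h

theorem Y_key (hy : y ∈ M.Y i) : (∀ v ∈ M.U (i + 2), Commute (M.mu i y) v) ∧
    ∀ v ∈ M.U (i + 6), Commute (M.mu i y) v ∧ Commute y v ∧ Commute (M.ka i y) v ∧ Commute (M.la i y) v := by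
  obtain ⟨hy, hc⟩ := mem_Y.1 hy
  by_cases h1 : y = 1
  · simp [h1]
  have hp : M.ka i y ∈ M.U (i + 4) := ka_mem (by omega)
  have hq : M.la i y ∈ M.U (i + 4) := la_mem (by omega)
  have hm : M.R (2 * i + 4) (M.mu i y) := mu_R hy h1 (by omega)
  have e0 : ∀ b, y * (M.la i y * b * (M.la i y)⁻¹) * y⁻¹ =
      (M.ka i y)⁻¹ * (M.mu i y * b * (M.mu i y)⁻¹) * (M.ka i y)⁻¹⁻¹ := fun b => by rw [mu]; group
  have k1 : ∀ b ∈ M.U (i + 2), Commute (M.mu i y) b := fun b hb => by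
    have c1 : ⁅M.la i y, b⁆ ∈ M.U (i + 3) := comm2 hq hb (by omega)
    have b1 : M.mu i y * b * (M.mu i y)⁻¹ ∈ M.U (i + 2) := R_mem hm hb (by omega)
    have c2 := comm2 (k := i + 3) (inv_mem hp) b1 (by omega)
    have e1 := e0 b
    rw [q4_conj (M.ka i y)⁻¹, q4_conj _ b, ← conj_mul, (hc b hb).mul_inv_cancel] at e1
    obtain ⟨g, hg, e2⟩ := fst hy c1 (by omega)
    have c3 : M.ph i y ⁅M.la i y, b⁆ = 1 := by
      refine M.sep (i := i + 1) (ph_mem hy c1 (by omega)) ?_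
      rw [e2, mul_assoc, mul_assoc, ← eq_mul_inv_iff_mul_eq] at e1
      rw [e1]
      exact mul_mem (mul_mem (mem_Iv c2 (by omega) (by omega)) (mem_Iv b1 (by omega) (by omega)))
        (inv_mem (mul_mem (Iv_mono hg (by omega) (by omega))
          (mul_mem (mem_Iv c1 (by omega) (by omega)) (mem_Iv hb (by omega) (by omega)))))
    rw [(ph_eq_one.1 c3).resolve_left h1, mul_one, mul_inv_cancel, one_mul, ← mul_inv_eq_iff_eq_mul] at e1
    rw [eq_one_of_ne (e1 ▸ mul_mem hb (inv_mem b1)) c2 (by omega) (by omega), mul_inv_eq_one] at e1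
    exact q4_comm e1.symm
  refine ⟨k1, fun v hv => ?_⟩
  have k2 : Commute (M.mu i y) v := by
    have hl : M.la (i + 6) v ∈ M.U (i + 2) := la_mem (by omega)
    have := R_ka (j := i + 2) hm hl (by omega)
    rw [(k1 _ hl).mul_inv_cancel, ka_la hv (by omega)] at this
    exact q4_comm this
  have hy' : y ∈ M.U (i + 8) := U_mem4 hy (by omega)
  have c1 : ⁅M.la i y, v⁆ ∈ M.U (i + 5) := comm2 hq hv (by omega)
  have c2 := comm2 (k := i + 5) (inv_mem hp) hv (by omega)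
  have c3 := comm2 (k := i + 7) hy' hv (by omega)
  have e1 := e0 v
  obtain ⟨g, hg, e2⟩ := lst hy' c1 (by omega)
  have c4 : M.ph (i + 8) y ⁅M.la i y, v⁆ ∈ M.U (i + 7) := ph_mem hy' c1 (by omega)
  have c5 : g ∈ M.U (i + 6) := Iv_single hg (by omega) (by omega)
  rw [k2.mul_inv_cancel, q4_conj (M.ka i y)⁻¹, q4_conj _ v, ← conj_mul, e2, q4_conj y v, mul_assoc,
    mul_assoc] at e1
  obtain ⟨e3, e4⟩ := uniq_left (k := i + 6) (j := i + 7) c1 c2 (mul_mem (mem_Iv c5 (by omega) (by omega))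
    (mul_mem (mem_Iv c4 (by omega) (by omega)) (mul_mem (mem_Iv c3 (by omega) (by omega))
      (mem_Iv hv (by omega) (by omega))))) (mem_Iv hv (by omega) (by omega)) (by omega) (by omega) e1
  rw [← mul_assoc, ← mul_assoc, mul_eq_right, mul_assoc, mul_eq_one_iff_eq_inv] at e4
  have e5 : g = 1 := eq_one_of_ne c5 (e4 ▸ inv_mem (mul_mem c4 c3)) (by omega) (by omega)
  have e6 : ⁅M.la i y, v⁆ = 1 := by
    by_contra e6
    refine (mid_ne (inv_mem c1) (inv_ne_one.2 e6) (U_mem4 hy (by omega)) h1).2 ?_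
    rw [commutatorElement_def _ y, inv_inv, mul_assoc, mul_assoc, ← mul_assoc y, e2, e5, mul_one,
      inv_mul_cancel_left]
    exact U_mem4 c4 (by omega)
  rw [e5, e6, ph_one', one_mul, eq_comm, inv_eq_one] at e4
  exact ⟨k2, commutatorElement_eq_one_iff_commute.1 e4, Commute.inv_left_iff.1
    (commutatorElement_eq_one_iff_commute.1 (e3 ▸ e6)), commutatorElement_eq_one_iff_commute.1 e6⟩

theorem mem_Y' : y ∈ M.Y i ↔ y ∈ M.U i ∧ ∀ v ∈ M.U (i - 2), Commute y v :=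
  ⟨fun h => ⟨h.1, fun v hv => ((Y_key h).2 v (U_mem4 hv (by omega))).2.1⟩, fun h =>
    mem_Y.2 ⟨h.1, fun v hv => ((Y_key (M := M.rev 0) (i := -i) (mem_Y.2 ⟨U_mem4 (M := M) h.1 (by omega),
      fun v hv => h.2 v (U_mem4 (M := M) hv (by omega))⟩)).2 v (U_mem4 (M := M) hv (by omega))).2.1⟩⟩

theorem Y_le (hy : y ∈ M.Y i) : y ∈ M.U i := hy.1

theorem Y_commute (hy : y ∈ M.Y i) (hv : v ∈ M.U j) (e : j = i + 2 ∨ j = i - 2 ∨ j = i + 1 ∨ j = i - 1) : Commute y v := by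
  rcases e with rfl | rfl | e
  · exact (mem_Y.1 hy).2 v hv
  · exact (mem_Y'.1 hy).2 v hv
  · exact commute_adj hy.1 hv e

theorem Y_eq (e : (8 : ℤ) ∣ i - j) : M.Y i = M.Y j := by
  rw [Y, Y, M.U_eq (i := i) (j := j) e, M.U_eq (i := i + 2) (j := j + 2) (by omega)]

theorem q4_conj_comm (h : Commute y (g⁻¹ * v * g⁻¹⁻¹)) : Commute (g * y * g⁻¹) v := by
  simpa [mul_assoc] using h.conj g

theorem T_mem_Y (hg : M.T c g) (hy : y ∈ M.Y i) (e : (8 : ℤ) ∣ i + c - j) : g * y * g⁻¹ ∈ M.Y j :=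
  mem_Y.2 ⟨T_mem hg hy.1 e, fun _ hv =>
    q4_conj_comm ((mem_Y.1 hy).2 _ (T_mem (M.T_inv hg) hv (by omega)))⟩

theorem R_mem_Y (hg : M.R c g) (hy : y ∈ M.Y i) (e : (8 : ℤ) ∣ c - i - j) : g * y * g⁻¹ ∈ M.Y j :=
  mem_Y.2 ⟨R_mem hg hy.1 e, fun _ hv =>
    q4_conj_comm ((mem_Y'.1 hy).2 _ (R_mem (M.R_inv hg) hv (by omega)))⟩

theorem ph_mem_Y (hu : u ∈ M.U i) (hy : y ∈ M.Y j) (e : (8 : ℤ) ∣ 2 * i + 4 - j - k) : M.ph i u y ∈ M.Y k := by
  by_cases h : u = 1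
  · rw [h, ph_one]
    exact one_mem _
  · rw [ph_eq h]
    exact R_mem_Y (mu_R (c := 2 * i + 4) hu h (by omega)) hy e

theorem ka_mem_Y (hy : y ∈ M.Y i) (e : (8 : ℤ) ∣ i + 4 - j) : M.ka i y ∈ M.Y j :=
  mem_Y.2 ⟨ka_mem e, fun v hv => ((Y_key hy).2 v (U_mem4 hv (by omega))).2.2.1⟩

theorem la_mem_Y (hy : y ∈ M.Y i) (e : (8 : ℤ) ∣ i + 4 - j) : M.la i y ∈ M.Y j :=
  mem_Y.2 ⟨la_mem e, fun v hv => ((Y_key hy).2 v (U_mem4 hv (by omega))).2.2.2⟩

theorem commute_mu_Y (hy : y ∈ M.Y i) (hv : v ∈ M.U j) (e : (4 : ℤ) ∣ i + 2 - j) : Commute v (M.mu i y) := by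
  by_cases h : (8 : ℤ) ∣ j - (i + 2)
  · exact ((Y_key hy).1 v (U_mem4 hv h)).symm
  · exact ((Y_key hy).2 v (U_mem4 hv (by omega))).1.symm

theorem conj_mem_Y (hu : u ∈ M.U i) (hy : y ∈ M.Y i) : u * y * u⁻¹ ∈ M.Y i :=
  mem_Y.2 ⟨mul_mem (mul_mem hu hy.1) (inv_mem hu), fun v hv => q4_conj_comm (by
    rw [q4_conj]
    exact (commute_adj hy.1 (comm2 (k := i + 1) (inv_mem hu) hv (by omega)) (by omega)).mul_right
      ((mem_Y.1 hy).2 v hv))⟩

theorem shift_Y (c i : ℤ) : (M.shift c).Y i = M.Y (i + c) := by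
  simp only [Y, shift_U, add_right_comm]

theorem rev_Y (c i : ℤ) : (M.rev c).Y i = M.Y (c - i) := by
  ext y
  rw [mem_Y, mem_Y', rev_U, rev_U, sub_add_eq_sub_sub]

theorem add_lst {y' : A} (hy : y ∈ M.Y i) (hy' : y' ∈ M.Y i) (hv : v ∈ M.U (i - 3)) :
    M.ph i (y * y') v = M.ph i y v * M.ph i y' v := by
  obtain ⟨g, hg, e1⟩ := lst hy.1 hv (by omega)
  obtain ⟨g', hg', e2⟩ := lst hy'.1 hv (by omega)
  obtain ⟨g'', hg'', e3⟩ := lst (mul_mem hy.1 hy'.1) hv (by omega)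
  have p1 : M.ph i y v ∈ M.U (i - 1) := ph_mem hy.1 hv (by omega)
  have p2 : M.ph i y' v ∈ M.U (i - 1) := ph_mem hy'.1 hv (by omega)
  have p3 : M.ph i (y * y') v ∈ M.U (i - 1) := ph_mem (mul_mem hy.1 hy'.1) hv (by omega)
  have g2 : g' ∈ M.U (i - 2) := Iv_single hg' (by omega) (by omega)
  refine (uniq_right (i := i - 3) (k := i - 2) (g := v * g'') (g' := v * g * g') p3 (mul_mem p1 p2)
    (mul_mem (mem_Iv hv (by omega) (by omega)) (Iv_mono hg'' (by omega) (by omega)))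
    (mul_mem (mul_mem (mem_Iv hv (by omega) (by omega)) (Iv_mono hg (by omega) (by omega)))
      (mem_Iv g2 (by omega) (by omega))) (by omega) (by omega) ?_).2
  calc _ = y * (y' * v * y'⁻¹) * y⁻¹ := by rw [← e3]; group
    _ = y * v * y⁻¹ * (y * g' * y⁻¹) * (y * M.ph i y' v * y⁻¹) := by rw [e2]; group
    _ = v * g * (M.ph i y v * g') * M.ph i y' v := by
      rw [e1, (Y_commute hy g2 (by omega)).mul_inv_cancel, (Y_commute hy p2 (by omega)).mul_inv_cancel]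
      group
    _ = _ := by rw [(commute_adj p1 g2 (by omega)).eq]; group

variable (h : M.Y 0 ≠ ⊥)
include h

theorem Y_ne (e : Even i) : M.Y i ≠ ⊥ := fun e' => h <| eq_bot_iff.2 fun y hy => by
  obtain ⟨m, hm⟩ := exists_T (M := M) e.two_dvd
  simpa using e'.le (T_mem_Y hm hy (by omega))

theorem commute_odd (e : Odd i) (hu : u ∈ M.U i) (hv : v ∈ M.U i) : Commute u v := by
  obtain ⟨⟨y, hy⟩, h1⟩ := (Subgroup.ne_bot_iff_exists_ne_one).1 (Y_ne h (i := i - 1) (e.sub_odd odd_one))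
  obtain ⟨d, hd, rfl⟩ := ph_surj (j := i + 2) hy.1 (fun e => h1 (Subtype.ext e)) hv (by omega)
  obtain ⟨g, hg, e1⟩ := fst hy.1 hd (by omega)
  have c1 := comm2 (k := i + 1) hu hd (by omega)
  have c2 : g * d ∈ M.I (i + 1) (i + 2) :=
    mul_mem (Iv_mono hg (by omega) (by omega)) (mem_Iv hd (by omega) (by omega))
  refine q4_comm (uniq_left (g := u * (g * d) * u⁻¹) (g' := ⁅u, d⁆ * (g * d))
    (mul_mem (mul_mem hu hv) (inv_mem hu)) hv ((M.cl (a := i) (b := i + 2) (by omega)).conj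
      (mem_Iv hu le_rfl le_rfl) c2 (by omega)) (mul_mem (mem_Iv c1 (by omega) (by omega)) c2)
      (by omega) (by omega) ?_).1
  calc _ = u * (y * d * y⁻¹) * u⁻¹ := by rw [e1]; group
    _ = y * (y⁻¹ * u * y⁻¹⁻¹) * d * (y⁻¹ * u * y⁻¹⁻¹)⁻¹ * y⁻¹ := by group
    _ = y * ⁅u, d⁆ * y⁻¹ * (y * d * y⁻¹) := by
      rw [(Y_commute hy hu (by omega)).inv_left.mul_inv_cancel, commutatorElement_def]; group
    _ = ⁅u, d⁆ * M.ph (i - 1) y d * (g * d) := by
      rw [(Y_commute hy c1 (by omega)).mul_inv_cancel, e1]; group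
    _ = _ := by rw [(commute_adj c1 hv (by omega)).eq]; group

theorem comm_odd (e : Even k) (hu : u ∈ M.U i) (hv : v ∈ M.U j) (e' : j = k + 1 ∧ i = k - 1 ∨ j = k - 1 ∧ i = k + 1) :
    ⁅u, v⁆ ∈ M.Y k := by
  have key : ∀ u ∈ M.U (k - 1), ∀ v ∈ M.U (k + 1), ⁅u, v⁆ ∈ M.Y k := fun u hu v hv =>
    mem_Y.2 ⟨comm2 hu hv (by omega), fun b hb => (q4_comm (by
      have c1 : Commute v ⁅u⁻¹, b⁆ := Iv_commute (fun l h1 h2 w hw => by
        by_cases h3 : l = k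
        · exact commute_adj hv hw (by omega)
        · exact commute_odd h e.add_one hv (U_mem4 hw (by omega))) (M.comm (by omega) (by omega) (inv_mem hu) hb)
      rw [conjugate_commutatorElement, (commute_adj hb hv (by omega)).mul_inv_cancel]
      calc _ = u * (⁅u⁻¹, b⁆ * v * ⁅u⁻¹, b⁆⁻¹) * u⁻¹ * v⁻¹ := by simp only [commutatorElement_def]; group
        _ = _ := by rw [c1.symm.mul_inv_cancel, commutatorElement_def])).symm⟩
  rcases e' with ⟨rfl, rfl⟩ | ⟨rfl, rfl⟩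
  · exact key u hu v hv
  · rw [← commutatorElement_inv]
    exact inv_mem (key v hv u hu)

theorem comm_even (e : Even i) (hu : u ∈ M.U i) (hv : v ∈ M.U i) : ⁅u, v⁆ ∈ M.Y i := by
  refine mem_Y.2 ⟨mul_mem (mul_mem (mul_mem hu hv) (inv_mem hu)) (inv_mem hv), fun w hw => q4_comm ?_⟩
  have key : ∀ a ∈ M.U i, ∀ b ∈ M.U i, a * (b * w * b⁻¹) * a⁻¹ = ⁅b, w⁆ * ⁅a, w⁆ * w := fun a ha b hb => by
    rw [q4_conj b, ← conj_mul, q4_conj a w,
      (commute_adj ha (comm2 (k := i + 1) hb hw (by omega)) (by omega)).mul_inv_cancel, mul_assoc]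
  have e1 := key _ (inv_mem hu) _ (inv_mem hv)
  rw [(commute_odd h e.add_one (comm2 (inv_mem hv) hw (by omega)) (comm2 (inv_mem hu) hw (by omega))).eq,
    ← key _ (inv_mem hv) _ (inv_mem hu)] at e1
  calc _ = u * v * (u⁻¹ * (v⁻¹ * w * v⁻¹⁻¹) * u⁻¹⁻¹) * (u * v)⁻¹ := by rw [commutatorElement_def]; group
    _ = _ := by rw [e1]; group

theorem qrd41 : M.QRD 4 (M.Y 4) (M.Y 8) (M.U 1) ⊥ (M.U 3) ⊥ where
  le _ := Y_le
  le' _ := Y_le
  la_mem _ hu := la_mem_Y hu (by omega)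
  la_mem' _ hu := la_mem_Y (i := 8) hu (by omega)
  conjY _ hu := ⟨fun _ hy => ph_mem_Y hu.1 hy (by omega), fun _ hy => ph_mem_Y hu.1 hy (by omega)⟩
  lt := bot_lt_iff_ne_bot.2 (M.nontriv 1)
  le₀ := bot_le
  comm _ ha _ hb := commutatorElement_eq_one_iff_commute.2 (commute_odd h odd_one ha hb)
  comm' _ ha _ hb := commutatorElement_eq_one_iff_commute.2 (commute_odd h (by decide) ha hb)
  conj _ hu := ⟨fun _ hv => ph_mem hu.1 hv (by omega), fun _ hv => by simp [Subgroup.mem_bot.1 hv],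
    fun _ hv => ph_mem hu.1 hv (by omega), fun _ hv => by simp [Subgroup.mem_bot.1 hv]⟩
  add _ hu _ hu' _ hv := inv_mul_eq_one.2 (add_lst hu hu' hv)
  add' _ hu _ hu' _ hv := inv_mul_eq_one.2 (by
    have := add_lst (M := M.rev 8) (i := 0) ((rev_Y 8 0).ge hu) ((rev_Y 8 0).ge hu')
      (U_mem4 (M := M) hv (by omega))
    rwa [rev_ph] at this)

theorem add_odd {u' : A} (e : Odd i) (hu : u ∈ M.U i) (hu' : u' ∈ M.U i) (hv : v ∈ M.U (i + 3)) :
    (M.ph i (u * u') v)⁻¹ * (M.ph i u v * M.ph i u' v) ∈ M.Y (i + 1) := by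
  obtain ⟨g, hg, e1⟩ := fst hu hv (by omega)
  obtain ⟨g', hg', e2⟩ := fst hu' hv (by omega)
  obtain ⟨g'', hg'', e3⟩ := fst (mul_mem hu hu') hv (by omega)
  have p1 : M.ph i u v ∈ M.U (i + 1) := ph_mem hu hv (by omega)
  have p2 : M.ph i u' v ∈ M.U (i + 1) := ph_mem hu' hv (by omega)
  have p3 : M.ph i (u * u') v ∈ M.U (i + 1) := ph_mem (mul_mem hu hu') hv (by omega)
  have g2 : g' ∈ M.U (i + 2) := Iv_single hg' (by omega) (by omega)
  have c1 := comm_odd h e.add_one hu g2 (by omega)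
  have e4 := (uniq_left (k := i + 2) (j := i + 3) (g := g'' * v) (g' := g' * g * v) p3
    (mul_mem (mul_mem p2 c1.1) p1)
    (mul_mem (Iv_mono hg'' (by omega) (by omega)) (mem_Iv hv (by omega) (by omega)))
    (mul_mem (mul_mem (mem_Iv g2 (by omega) (by omega)) (Iv_mono hg (by omega) (by omega)))
      (mem_Iv hv (by omega) (by omega))) (by omega) (by omega) (by
    calc _ = u * (u' * v * u'⁻¹) * u⁻¹ := by rw [← mul_assoc, ← e3]; group
      _ = u * M.ph i u' v * u⁻¹ * (u * g' * u⁻¹) * (u * v * u⁻¹) := by rw [e2]; group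
      _ = M.ph i u' v * ⁅u, g'⁆ * (g' * M.ph i u v) * g * v := by
        rw [e1, (commute_adj hu p2 (by omega)).mul_inv_cancel, q4_conj u g']
        group
      _ = _ := by rw [(commute_adj g2 p1 (by omega)).eq]; group)).1
  convert mul_mem (conj_mem_Y (inv_mem p1) (inv_mem c1)) (comm_even h e.add_one (inv_mem p1) (inv_mem p2)) using 1
  rw [e4, commutatorElement_def (M.ph i u v)⁻¹]
  group

theorem qrd14 (h' : M.Y 4 ≠ M.U 4) : M.QRD 1 (M.U 1) (M.U 5) (M.U 4) (M.Y 4) (M.U 2) (M.Y 2) where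
  le := le_rfl
  le' := le_rfl
  la_mem _ _ := la_mem (by omega)
  la_mem' _ _ := la_mem (by omega)
  conjY _ hu := ⟨fun _ hy => ph_mem hu hy (by omega), fun _ hy => ph_mem hu hy (by omega)⟩
  lt := lt_of_le_of_ne (fun _ => Y_le) h'
  le₀ _ := Y_le
  comm _ ha _ hb := comm_even h (by decide) ha hb
  comm' _ ha _ hb := comm_even h (by decide) ha hb
  conj _ hu := ⟨fun _ hv => ph_mem hu hv (by omega), fun _ hv => ph_mem_Y hu hv (by omega),
    fun _ hv => ph_mem hu hv (by omega), fun _ hv => ph_mem_Y hu hv (by omega)⟩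
  add _ hu _ hu' _ hv := add_odd h odd_one hu hu' hv
  add' _ hu _ hu' _ hv := by
    have := add_odd (M := M.rev 6) (i := 1) (by rw [rev_Y]; exact Y_ne h (by decide)) odd_one hu hu' hv
    rwa [rev_ph, rev_Y] at this

end MS

end CfsgLib.MP
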