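import Cfsg.Agent.Lib.MP.QS0
import Cfsg.Agent.Lib.Push.Jordan

/-!
# Package QE: the field of a pair of opposite root groups (see `plans/MP.md`)
-/

set_option autoImplicit false

namespace CfsgLib.MP
open Cfsg CfsgLib.Tits MulAction
open scoped commutatorElement

/-- the range of a map that is additive on a subgroup -/
def qeRange {A R : Type*} [Group A] [AddCommGroup R] (Y : Subgroup A) (a : A → R)
    (h : ∀ y ∈ Y, ∀ y' ∈ Y, a (y * y') = a y + a y') : AddSubgroup R where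
  carrier := {r | ∃ y ∈ Y, a y = r}
  zero_mem' := ⟨1, one_mem _, by simpa using h 1 (one_mem _) 1 (one_mem _)⟩
  add_mem' := by
    rintro _ _ ⟨y, hy, rfl⟩ ⟨y', hy', rfl⟩
    exact ⟨_, mul_mem hy hy', h y hy y' hy'⟩
  neg_mem' := by
    rintro _ ⟨y, hy, rfl⟩
    refine ⟨_, inv_mem hy, ?_⟩
    rw [eq_neg_iff_add_eq_zero, ← h _ (inv_mem hy) _ hy, inv_mul_cancel]
    simpa using h 1 (one_mem _) 1 (one_mem _)

theorem MS.QRD.exists_qr {n : ℕ} {A : Type*} [Group A] [Finite A] {M : MS n A} {i : ℤ} {Y Y' V V₀ V' V₀' : Subgroup A}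
    (D : M.QRD i Y Y' V V₀ V' V₀') {e : A} (he : e ∈ Y) (h1 : e ≠ 1) :
    ∃ (F : Type) (_ : Field F) (_ : Fintype F) (x : F → A), QR M i Y V V₀ F x ∧ x 1 = e := by
  obtain ⟨W, _, q, hq⟩ := exists_QQ D.comm
  have hei := inv_mem he
  -- the endomorphism induced by two reflections
  have hl : ∀ y z : A, ∃ φ : AddMonoid.End W, y ∈ Y → z ∈ Y →
      ∀ v ∈ V, φ (q v) = q (M.ph i y (M.ph i z v)) := by
    intro y z
    by_cases hy : y ∈ Y ∧ z ∈ Y
    · have hm : ∀ v ∈ V, M.ph i y (M.ph i z v) ∈ V := fun v hv =>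
        (D.conj y hy.1).2.2.1 _ ((D.conj z hy.2).1 v hv)
      obtain ⟨φ, hφ⟩ := hq.lift (fun v => q (M.ph i y (M.ph i z v)))
        (fun a ha b hb => by rw [ph_mul, ph_mul, hq.mul _ (hm a ha) _ (hm b hb)])
        fun a ha h0 => (hq.zero _ (hm a ha)).2 ((D.conj y hy.1).2.2.2 _ ((D.conj z hy.2).2.1 a h0))
      exact ⟨φ, fun _ _ => hφ⟩
    · exact ⟨0, fun h h' => absurd ⟨h, h'⟩ hy⟩
  choose E hE using hl
  have hext : ∀ {φ ψ : AddMonoid.End W}, (∀ v ∈ V, φ (q v) = ψ (q v)) → φ = ψ := hq.ext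
  have hm : ∀ y ∈ Y, ∀ z ∈ Y, ∀ v ∈ V, M.ph i y (M.ph i z v) ∈ V := fun y hy z hz v hv =>
    (D.conj y hy).2.2.1 _ ((D.conj z hz).1 v hv)
  have hinv : ∀ y ∈ Y, ∀ z ∈ Y, y ≠ 1 → z ≠ 1 → E y z * E z⁻¹ y⁻¹ = 1 := fun y hy z hz k k' =>
    hext fun v hv => by
      change E y z (E z⁻¹ y⁻¹ (q v)) = q v
      rw [hE _ _ (inv_mem hz) (inv_mem hy) v hv, hE y z hy hz _ (hm _ (inv_mem hz) _ (inv_mem hy) v hv),
        ph_ph_inv (D.le hz) k', ph_ph_inv (D.le hy) k]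
  have hone : ∀ y ∈ Y, y ≠ 1 → E y⁻¹ y = 1 := fun y hy k => hext fun v hv => by
    rw [hE _ _ (inv_mem hy) hy v hv, ph_inv_ph (D.le hy) k]; rfl
  have ha : ∀ y ∈ Y, ∀ y' ∈ Y, E e⁻¹ (y * y') = E e⁻¹ y + E e⁻¹ y' := fun y hy y' hy' =>
    hext fun v hv => by
      change _ = E e⁻¹ y (q v) + E e⁻¹ y' (q v)
      rw [hE _ _ hei (mul_mem hy hy') v hv, hE _ _ hei hy v hv, hE _ _ hei hy' v hv,
        ← hq.mul _ (hm _ hei _ hy v hv) _ (hm _ hei _ hy' v hv), ← hq.eq_iff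
          (hm _ hei _ (mul_mem hy hy') v hv) (mul_mem (hm _ hei _ hy v hv) (hm _ hei _ hy' v hv)),
        ← ph_mul, ← ph_inv, ← ph_mul]
      exact (D.conj _ hei).2.2.2 _ (D.add y hy y' hy' v hv)
  have hb : ∀ y ∈ Y', ∀ y' ∈ Y', E (M.la (i + n) (y * y')) e = E (M.la (i + n) y) e + E (M.la (i + n) y') e :=
    fun y hy y' hy' => hext fun v hv => by
      have k := D.la_mem' _ (mul_mem hy hy')
      have k1 := D.la_mem' _ hy
      have k2 := D.la_mem' _ hy'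
      change _ = E _ e (q v) + E _ e (q v)
      rw [hE _ _ k he v hv, hE _ _ k1 he v hv, hE _ _ k2 he v hv,
        ← hq.mul _ (hm _ k1 _ he v hv) _ (hm _ k2 _ he v hv), ← hq.eq_iff
          (hm _ k _ he v hv) (mul_mem (hm _ k1 _ he v hv) (hm _ k2 _ he v hv)),
        ph_la' (D.le' hy), ph_la' (D.le' hy'), ph_la' (D.le' (mul_mem hy hy'))]
      exact D.add' y hy y' hy' _ ((D.conj e he).1 v hv)
  have hc : ∀ y ∈ Y, E (M.la (i + n) (M.la i y)) e = E y e := fun y hy => hext fun v hv => by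
    rw [hE _ _ (D.la_mem' _ (D.la_mem y hy)) he v hv, hE _ _ hy he v hv, ph_la' (D.le' (D.la_mem y hy)),
      ph_la (D.le hy)]
  have ha0 : E e⁻¹ 1 = 0 := by simpa using ha 1 (one_mem _) 1 (one_mem _)
  have hb0 : E (M.la (i + n) 1) e = 0 := by simpa only [mul_one, left_eq_add] using hb 1 (one_mem _) 1 (one_mem _)
  obtain ⟨-, hJ⟩ := Push.jordanDiv_of_inv (J := qeRange Y (E e⁻¹) ha)
    (K := qeRange Y' (fun y => E (M.la (i + n) y) e) hb) ⟨e, he, hone e he h1⟩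
    ⟨_, D.la_mem _ hei, (hc _ hei).trans (hone e he h1)⟩ (by
      rintro _ ⟨y, hy, rfl⟩ h0
      have k : y ≠ 1 := fun k => h0 (k ▸ ha0)
      refine ⟨_, ⟨_, D.la_mem _ (inv_mem hy), hc _ (inv_mem hy)⟩, ?_, ?_⟩
      · simpa using hinv _ hei y hy (inv_ne_one.2 h1) k
      · simpa using hinv _ (inv_mem hy) e he (inv_ne_one.2 k) h1) (by
      rintro _ ⟨y, hy, rfl⟩ h0
      have k : M.la (i + n) y ≠ 1 := la_ne (D.le' hy) fun k => h0 (k ▸ hb0)
      have k1 := D.la_mem' y hy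
      refine ⟨_, ⟨_, inv_mem k1, rfl⟩, hinv _ k1 e he k h1, ?_⟩
      simpa using hinv _ hei _ (inv_mem k1) (inv_ne_one.2 h1) (inv_ne_one.2 k))
  obtain ⟨v₀, hv₀, hv₁⟩ := hq.exists_ne D.lt
  have hW : Finite W := Finite.of_surjective q fun w => (hq.surj w).imp fun _ h => h.2
  have hR : Finite (AddMonoid.End W) := Finite.of_injective _ (DFunLike.coe_injective (F := W →+ W))
  have hnt : Nontrivial (AddMonoid.End W) := ⟨1, 0, fun k => hv₁ (DFunLike.congr_fun k (q v₀))⟩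
  have hinj : ∀ y ∈ Y, ∀ y' ∈ Y, E e⁻¹ y = E e⁻¹ y' → y = y' := fun y hy y' hy' k => by
    by_contra hne
    have k1 := ha y hy _ (mul_mem (inv_mem hy) hy')
    rw [mul_inv_cancel_left, k, left_eq_add] at k1
    have := hinv _ hei _ (mul_mem (inv_mem hy) hy') (inv_ne_one.2 h1) (by rwa [Ne, inv_mul_eq_one])
    rw [k1, zero_mul] at this
    exact zero_ne_one this
  let _ := hJ.isField.toField
  have hx : ∀ t : hJ.subring, ∃ y ∈ Y, E e⁻¹ y = t := fun t => t.2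
  choose x hx hx' using hx
  let ψ := Shrink.ringEquiv.{0} hJ.subring
  have hx1 : x (ψ 1) = e := hinj _ (hx _) _ he (by rw [hx', hone e he h1, map_one]; rfl)
  have hsm : ∀ t v, M.sm i (fun t => x (ψ t)) t v = M.ph i e⁻¹ (M.ph i (x (ψ t)) v) := fun t v => by
    rw [sm, hx1, ph_eq (inv_ne_one.2 h1), mu_inv (D.le he), inv_inv]
  refine ⟨Shrink.{0} hJ.subring, inferInstance, Fintype.ofFinite _, fun t => x (ψ t),
    ⟨⟨fun s t => hinj _ (hx _) _ (mul_mem (hx _) (hx _)) ?_, fun s t k => ψ.injective (Subtype.ext ?_),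
      fun u => ⟨fun hu => ⟨ψ.symm ⟨_, u, hu, rfl⟩, hinj _ hu _ (hx _) ?_⟩, ?_⟩⟩, fun s t v hv => ?_⟩, hx1⟩
  · rw [ha _ (hx _) _ (hx _), hx', hx', hx', map_add]; rfl
  · rw [← hx', ← hx']; exact congrArg _ k
  · rw [hx', ψ.apply_symm_apply]
  · rintro ⟨t, rfl⟩; exact hx _
  · rw [hsm, hsm, hsm, hq.eq_iff (hm _ hei _ (hx _) v hv) (hm _ hei _ (hx _) _ (hm _ hei _ (hx _) v hv)),
      ← hE _ _ hei (hx _) v hv, ← hE _ _ hei (hx _) _ (hm _ hei _ (hx _) v hv), ← hE _ _ hei (hx _) v hv,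
      hx', hx', hx', map_mul]
    rfl

end CfsgLib.MP
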