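import Cfsg.Agent.Lib.MP.Q4A
import Cfsg.Agent.Lib.MP.QE
import Cfsg.Agent.Lib.MP.QS

/-!
# Package Q4B: quadrangles, the quadratic space (see `plans/MP.md`)
-/

set_option autoImplicit false

namespace CfsgLib.MP
open Cfsg CfsgLib.Tits MulAction MS
open scoped commutatorElement

variable {A : Type*} [Group A] {M : MS 4 A} {u v y e k : A}

theorem q4b_rel (hu : u ∈ M.U 1) (hy : y ∈ M.U 4) : ⁅u, y⁆ = M.ph 1 u y * (M.ph 4 y u)⁻¹ := by
  obtain ⟨g, hg, e1⟩ := fst hu hy (by omega)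
  obtain ⟨g', hg', e2⟩ := lst hy (inv_mem hu) (by omega)
  have e3 : ⁅u, y⁆ = M.ph 1 u y * g := by rw [commutatorElement_def, e1, mul_inv_cancel_right]
  have e4 : ⁅u, y⁆ = g' * (M.ph 4 y u)⁻¹ := by
    rw [commutatorElement_def, mul_assoc, mul_assoc, ← mul_assoc y, e2, ph_inv]; group
  rw [e3, (uniq_left (i := 2) (k := 3) (j := 3) (ph_mem hu hy (by omega)) (Iv_single hg' (by omega) (by omega))
    (Iv_mono hg (by omega) (by omega)) (mem_Iv (inv_mem (ph_mem hy hu (by omega))) le_rfl le_rfl)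
    (by omega) (by omega) (e3.symm.trans e4)).2]

theorem q4b_ph {i : ℤ} (h : Commute k (M.mu i y)) (v : A) : k * M.ph i y v * k⁻¹ = M.ph i y (k * v * k⁻¹) := by
  by_cases h1 : y = 1
  · simp [h1]
  · rw [ph_eq h1, ph_eq h1, ← conj_mul, ← conj_mul, h.mul_inv_cancel, h.inv_right.mul_inv_cancel]

/-- comparison of the `U 3`-components -/
theorem q4b_key {y' : A} (he : e ∈ M.U 1) (he1 : e ≠ 1) (hu : u ∈ M.U 1) (h1 : u ≠ 1) (hy : y ∈ M.U 4)
    (hy' : y' ∈ M.Y 4) (h : M.ph 1 u y = M.ph 1 e y') :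
    M.ph 4 y u = M.mu 1 e * M.ph 4 y' ((M.mu 1 e)⁻¹ * (M.ka 1 u)⁻¹ * (M.mu 1 e)⁻¹⁻¹) * (M.mu 1 e)⁻¹ := by
  have hm : M.R 6 (M.mu 1 e) := mu_R he he1 (by omega)
  have hp : M.ka 1 u ∈ M.U 5 := ka_mem (by omega)
  have h0 : (M.mu 1 e)⁻¹ * (M.ka 1 u)⁻¹ * (M.mu 1 e)⁻¹⁻¹ ∈ M.U 1 := R_mem (M.R_inv hm) (inv_mem hp) (by omega)
  have e1 := sh1 (M := M) (i := 1) (u := u) (commute_adj (i := 5) (la_mem (by omega)) hy (by omega))
  have e2 := q4b_rel h0 hy'.1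
  have p1 := ph_mem_Y (k := 2) h0 hy' (by omega)
  have p2 := ph_mem (k := 3) hy'.1 h0 (by omega)
  rw [← ph_eq h1, h, q4_conj, q4b_rel hu hy, h] at e1
  generalize hw : (M.mu 1 e)⁻¹ * (M.ka 1 u)⁻¹ * (M.mu 1 e)⁻¹⁻¹ = w at *
  have p3 := R_mem_Y (j := 4) hm p1 (by omega)
  have p4 := R_mem (j := 3) hm (inv_mem p2) (by omega)
  have p5 := ph_mem (k := 2) he hy'.1 (by omega)
  have e3 : (M.ka 1 u)⁻¹ * M.ph 1 e y' * M.ka 1 u = M.ph 1 e y' * (M.mu 1 e * (M.ph 4 y' w)⁻¹ * (M.mu 1 e)⁻¹) *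
      (M.mu 1 e * M.ph 1 w y' * (M.mu 1 e)⁻¹) := by
    rw [← ((Y_commute p3 p5 (by omega)).mul_right (Y_commute p3 p4 (by omega))).eq,
      (commute_adj p5 p4 (by omega)).eq, ph_eq he1, conj_mul, conj_mul, ← mul_assoc (M.ph 1 w y'), ← e2,
      ← q4_conj, ← hw]
    group
  rw [e3, mul_assoc, mul_assoc (M.ph 1 e y'), mul_right_inj] at e1
  have e4 := (uniq_left (k := 4) (j := 4) (inv_mem (ph_mem (k := 3) hy hu (by omega))) p4
    (mem_Iv hy le_rfl le_rfl) (mem_Iv p3.1 le_rfl le_rfl) (by omega) (by omega) e1).1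
  rw [← inv_inj, e4]
  group

theorem exists_b4 {A : Type*} [Group A] [Finite A] {M : MS 4 A} (h : M.Y 0 ≠ ⊥) :
    ∃ (F : Type) (_ : Field F) (_ : Fintype F), Nonempty (B4 M F) := by
  have D := qrd41 h
  obtain ⟨⟨y0, hy0⟩, h0⟩ := (Subgroup.ne_bot_iff_exists_ne_one).1 (Y_ne h (i := 4) (by decide))
  obtain ⟨F, _, _, x, c, -⟩ := D.exists_qr hy0 fun e => h0 (Subtype.ext e)
  obtain ⟨e, he, he1⟩ := M.exists_ne 1
  obtain ⟨J, _, _, y, py, hy⟩ := c.exists_module D le_rfl fun t v hv => c.sm_mem D hv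
  have hm : M.R 6 (M.mu 1 e) := mu_R he he1 (by omega)
  have hx : ∀ t, x t ∈ M.Y 4 := c.toPar.mem'
  have inj : ∀ {s t}, M.ph 1 e (x s) = M.ph 1 e (x t) → s = t := fun e1 => by
    rw [ph_eq he1, ph_eq he1, mul_left_inj, mul_right_inj] at e1
    exact c.inj e1
  have add : ∀ s t, M.ph 1 e (x (s + t)) = M.ph 1 e (x s) * M.ph 1 e (x t) := fun s t => by rw [c.add, ph_mul]
  have surj : ∀ u ∈ M.U 1, u ≠ 1 → ∀ z ∈ M.Y 2, ∃ t, M.ph 1 u (x t) = z := fun u hu h1 z hz => by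
    obtain ⟨t, ht⟩ := (c.mem _).1 (R_mem_Y (j := 4) (M.R_inv (mu_R (c := 6) hu h1 (by omega))) hz (by omega))
    exact ⟨t, by rw [ph_eq h1, ← ht]; group⟩
  have m2 : ∀ u ∈ M.U 1, ∀ t, M.ph 1 u (x t) ∈ M.Y 2 := fun u hu t => ph_mem_Y hu (hx t) (by omega)
  choose! π hπ using surj e he he1
  have hh2 : ∀ t, ∀ j : ℤ, 4 ∣ 4 + 2 - j → ∀ v ∈ M.U j, Commute (M.hh 4 x t) v := fun t j hj v hv =>
    ((commute_mu_Y (hx 1) hv hj).inv_right.mul_right (commute_mu_Y (hx t) hv hj)).symm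
  have main : ∀ u ∈ M.U 1, u ≠ 1 → ∀ t₁, M.ph 1 u (x t₁) = M.ph 1 e (x 1) → ∀ r t,
      M.ph 1 u (x t) = M.ph 1 e (x r) → r = t₁⁻¹ * t := fun u hu h1 t₁ ht₁ r t ht => by
    by_cases hr : r = 0
    · rw [hr, c.toPar.zero, ph_one', ph_eq_one, c.toPar.eq_one] at ht
      rw [hr, ht.resolve_left h1, mul_zero]
    set k := M.mu 1 e * M.hh 4 x r⁻¹ * (M.mu 1 e)⁻¹ with hk
    have k1 : ∀ s, Commute k (M.mu 4 (x s)) := fun s => commute_mu (j := 8)
      (fun z hz => q4_conj_comm (hh2 _ 2 (by omega) _ (R_mem (M.R_inv hm) hz (by omega))))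
      (fun z hz => q4_conj_comm (hh2 _ 6 (by omega) _ (R_mem (M.R_inv hm) hz (by omega)))) (hx s).1 (by omega)
    have k2 : ∀ s v, k * M.sm 4 x s v * k⁻¹ = M.sm 4 x s (k * v * k⁻¹) := fun s v => by
      rw [sm, sm, ← q4b_ph (k1 s), ← conj_mul, ← conj_mul, (k1 1).mul_inv_cancel,
        (k1 1).inv_right.mul_inv_cancel]
    have k3 : ∀ v ∈ M.U 1, k * v * k⁻¹ ∈ M.U 1 := fun v hv =>
      T_mem (M.R_R (M.R_T hm (c.hh_T D (inv_ne_zero hr))) (M.R_inv hm)) hv (by omega)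
    have k4 : ∀ u ∈ M.U 1, u ≠ 1 → ∀ t₁, M.ph 1 u (x t₁) = M.ph 1 e (x 1) → ∀ t,
        M.ph 1 u (x t) = M.ph 1 e (x r) → k * u * k⁻¹ = M.sm 4 x (t₁⁻¹ * t) u := fun u hu h1 t₁ ht₁ t ht => by
      have t0 : t₁ ≠ 0 := fun e0 => by
        rw [e0, c.toPar.zero, ph_one', eq_comm, ph_eq_one, c.toPar.eq_one] at ht₁
        simp [he1] at ht₁
      have e1 := q4b_key he he1 hu h1 (hx t).1 (hx r) ht
      have e2 := c.hh_ph' D (inv_ne_zero hr) (R_mem (j := 1) (M.R_inv hm) (inv_mem (ka_mem (i := 1) (u := u) (j := 5)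
        (by omega))) (by omega))
      rw [inv_inv r] at e2
      have e3 : M.ph 4 (x t) u = M.ph 4 (x t₁) (k * u * k⁻¹) := by
        rw [← q4b_ph (k1 t₁), q4b_key he he1 hu h1 (hx t₁).1 (hx 1) ht₁, e1, ← e2, hk]
        group
      rw [c.sm_mul' D hu, sm, sm, e3, ← sm, ← sm, ← c.sm_mul' D (k3 u hu), inv_mul_cancel₀ t0, c.sm_one D]
    have k5 : ∀ a, ∃ d : F, k * y a * k⁻¹ = y (d • a) := fun a => by
      by_cases h1 : y a = 1
      · exact ⟨1, by simp [h1]⟩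
      obtain ⟨t₁, ht₁⟩ := surj _ (py.mem' a) h1 _ (m2 e he 1)
      obtain ⟨t, ht⟩ := surj _ (py.mem' a) h1 _ (m2 e he r)
      exact ⟨_, by rw [k4 _ (py.mem' a) h1 t₁ ht₁ t ht, hy]⟩
    obtain ⟨ε, rfl⟩ := (py.mem e).1 he
    have k6 : k * y ε * k⁻¹ = y (r • ε) := by rw [k4 _ he he1 1 rfl r rfl, hy, inv_one, one_mul]
    obtain ⟨a, rfl⟩ := (py.mem u).1 hu
    refine c.sm_inj' D hu h1 ?_
    rw [← k4 _ hu h1 t₁ ht₁ t ht, ← hy]
    by_cases ha : ∃ s : F, a = s • ε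
    · obtain ⟨s, rfl⟩ := ha
      rw [hy s ε, k2, k6, ← hy, smul_comm]
    obtain ⟨d, hd⟩ := k5 a
    obtain ⟨d', hd'⟩ := k5 (a + ε)
    rw [py.add, ← conj_mul, hd, k6, ← py.add] at hd'
    replace hd' := py.inj hd'
    by_cases hdd : d = d'
    · have : (r - d') • ε = 0 := by linear_combination (norm := module) hd' - hdd • a
      rw [hd, hdd, sub_eq_zero.1 ((smul_eq_zero.1 this).resolve_right fun e0 => he1 (py.eq_one.2 e0))]
    · refine (ha ⟨(d - d')⁻¹ * (d' - r), ?_⟩).elim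
      rw [mul_smul, eq_inv_smul_iff₀ (sub_ne_zero.2 hdd)]
      linear_combination (norm := module) hd'
  let q : A → F := fun u => π (M.ph 1 u (x 1))
  let b : A → A → F := fun u v => -π ⁅u, M.ph 4 (x 1) v⁆
  have m3 : ∀ t, ∀ v ∈ M.U 1, M.ph 4 (x t) v ∈ M.U 3 := fun t v hv => ph_mem (hx t).1 hv (by omega)
  have rel13 : ∀ u ∈ M.U 1, ∀ v ∈ M.U 1, ⁅u, M.ph 4 (x 1) v⁆ = M.ph 1 e (x (-b u v)) := fun u hu v hv => by
    rw [neg_neg, hπ _ (comm_odd h (by decide) hu (m3 1 v hv) (by omega))]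
  have ph14 : ∀ u ∈ M.U 1, ∀ t, M.ph 1 u (x t) = M.ph 1 e (x (t * q u)) := fun u hu t => by
    have e1 := hπ _ (m2 u hu 1)
    by_cases h1 : u = 1
    · rw [h1, ph_one, ph_eq_one, c.toPar.eq_one] at e1
      simp only [q, h1, ph_one, e1.resolve_left he1, mul_zero, c.toPar.zero, ph_one']
    obtain ⟨t₁, ht₁⟩ := surj u hu h1 _ (m2 e he 1)
    have e2 := hπ _ (m2 u hu t)
    rw [← e2, main u hu h1 t₁ ht₁ _ t e2.symm, show q u = _ from main u hu h1 t₁ ht₁ _ 1 e1.symm, mul_one,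
      mul_comm]
  have rel14 : ∀ u ∈ M.U 1, ∀ t, ⁅u, x t⁆ = M.ph 1 e (x (t * q u)) * M.ph 4 (x (-t)) u := fun u hu t => by
    rw [q4b_rel hu (hx t).1, ph14 u hu, ← c.ph_sm D, ← ph_inv, ← c.sm_neg' D hu, c.ph_sm D]
  have q0 : ∀ u ∈ M.U 1, q u = 0 ↔ u = 1 := fun u hu => by
    have e1 := ph14 u hu 1
    rw [one_mul] at e1
    rw [← c.toPar.eq_one, ← or_iff_right (b := x (q u) = 1) he1, ← ph_eq_one (M := M) (i := 1), ← e1, ph_eq_one,
      c.toPar.eq_one]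
    simp
  have key : ∀ u ∈ M.U 1, ∀ v ∈ M.U 1, ∀ t, b u (M.sm 4 x t v) = t * (q (u * v) - q u - q v) := fun u hu v hv t => by
    have e1 := rel13 u hu _ (c.sm_mem D (t := t) hv)
    rw [c.ph_sm D] at e1
    have i3 : ∀ v ∈ M.U 1, M.ph 4 (x t) v ∈ M.I 3 3 := fun v hv => mem_Iv (m3 t v hv) le_rfl le_rfl
    have e2 := (uniq_left (i := 2) (g := M.ph 4 (x t) (u * v)) (g' := M.ph 4 (x t) v * M.ph 4 (x t) u)
      (m2 e he (-t * q (u * v))).1 (m2 e he (-t * q v + -b u (M.sm 4 x t v) + -t * q u)).1 (i3 _ (mul_mem hu hv))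
      (mul_mem (i3 v hv) (i3 u hu)) (by omega) (by omega) (by
        have r1 := rel14 _ (mul_mem hu hv) (-t)
        have r2 := rel14 _ hu (-t)
        have r3 := rel14 _ hv (-t)
        rw [neg_neg] at r1 r2 r3
        calc _ = u * ⁅v, x (-t)⁆ * u⁻¹ * ⁅u, x (-t)⁆ := by rw [← r1]; simp only [commutatorElement_def]; group
          _ = _ := by
            rw [r2, r3, ← conj_mul, (commute_adj hu (m2 e he _).1 (by omega)).mul_inv_cancel, q4_conj, e1, add, add,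
              mul_assoc, mul_assoc, ← mul_assoc (M.ph 4 (x t) v),
              (commute_adj (m3 t v hv) (m2 e he _).1 (by omega)).eq]
            group)).1
    linear_combination inj e2
  have q_mul : ∀ u ∈ M.U 1, ∀ v ∈ M.U 1, q (u * v) = q u + q v + b u v := fun u hu v hv => by
    have := key u hu v hv 1
    rw [c.sm_one D] at this
    linear_combination -this
  have symm : ∀ u ∈ M.U 1, ∀ v ∈ M.U 1, b u v = b v u := fun u hu v hv => by
    have := q_mul v hv u hu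
    rw [← (commute_odd h odd_one hu hv).eq] at this
    linear_combination this - q_mul u hu v hv
  refine ⟨F, inferInstance, inferInstance, ⟨⟨x, c, e, he, q, b, inj (by rw [← one_mul (q e), ← ph14 e he]), q0,
    q_mul, fun t u hu => ?_, fun u hu u' hu' v hv => ?_, symm, fun t u hu v hv => ?_, ph14, rel14, rel13⟩⟩⟩
  · by_cases ht : t = 0
    · rw [ht, c.sm_zero D, (q0 1 (one_mem _)).2 rfl]
      ring
    have e1 := T_ph (j := 1) (v := x 1) (c.hh_T D ht) hu (by omega)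
    rw [(hh2 t 2 (by omega) _ (m2 u hu 1).1).mul_inv_cancel, ← c.sm_eq D ht, c.hh_x D ht, ph14 u hu,
      ph14 _ (c.sm_mem D hu)] at e1
    have e2 := inj e1
    field_simp at e2
    linear_combination -e2
  · have e1 := rel13 _ (mul_mem hu hu') v hv
    rw [show ⁅u * u', M.ph 4 (x 1) v⁆ = u * ⁅u', M.ph 4 (x 1) v⁆ * u⁻¹ * ⁅u, M.ph 4 (x 1) v⁆ by
      simp only [commutatorElement_def]; group, rel13 u hu v hv, rel13 u' hu' v hv,
      (commute_adj hu (m2 e he _).1 (by omega)).mul_inv_cancel, ← add] at e1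
    linear_combination inj e1
  · rw [symm _ (c.sm_mem D hu) v hv, key v hv u hu, q_mul v hv u hu, symm v hv u hu]
    ring

end CfsgLib.MP
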