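import Cfsg.Agent.Lib.MP.Q4A
import Cfsg.Agent.Lib.MP.QS
import Cfsg.Agent.Lib.Tits.PQ

/-!
# Package Q4C: reduced quadrangles, parameters, uniqueness (see `plans/MP.md`)
-/

set_option autoImplicit false

namespace CfsgLib.MP
open Cfsg CfsgLib.Tits MulAction
open scoped commutatorElement

variable {A A' : Type*} [Group A] [Finite A] [Group A'] [Finite A'] {M : MS 4 A} {M' : MS 4 A'}
  {F F' : Type*} [Field F] [Finite F] [Field F'] [Finite F']

section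
omit [Finite A] [Finite F] [Finite A']

theorem B4.q4c_b_one (c : B4 M F) {v : A} (hv : v ∈ M.U 1) : c.b 1 v = 0 := by
  simpa using c.b_mul_left 1 (one_mem _) 1 (one_mem _) v hv

theorem B4.q4c_b_self (c : B4 M F) (h : M.Y 0 ≠ ⊥) {v : A} (hv : v ∈ M.U 1) : c.b v v = 2 * c.q v := by
  have h1 := c.q_sm (1 + 1) v hv
  rw [c.qr.sm_add' (MS.qrd41 h) hv, c.qr.sm_one (MS.qrd41 h), c.q_mul v hv v hv] at h1
  linear_combination h1

/-- the quadratic space as a pseudo-quadratic space -/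
noncomputable def B4.pqd (c : B4 M F) (h : M.Y 0 ≠ ⊥) : PQD F ((M.rev 5).U 4) where
  σ := RingHom.id F
  ε := -1
  π y := c.q y
  f y z := c.b y z
  ρ s y := ⟨M.sm 4 c.x s y, c.qr.sm_mem (MS.qrd41 h) y.2⟩
  g _ _ := 1
  σσ _ := rfl
  π_mul y z := c.q_mul y y.2 z z.2
  f_mul_left y y' z := c.b_mul_left y y.2 y' y'.2 z z.2
  f_mul_right y z z' := by
    rw [c.b_symm y y.2 _ (z * z').2, c.b_symm y y.2 z z.2, c.b_symm y y.2 z' z'.2]
    exact c.b_mul_left z z.2 z' z'.2 y y.2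
  π_eq_zero y := (c.q_eq_zero y y.2).trans OneMemClass.coe_eq_one
  f_ρ_left s y z := c.b_sm_left s y y.2 z z.2
  f_ρ_right s y z := by
    rw [c.b_symm y y.2 _ (c.qr.sm_mem (MS.qrd41 h) z.2), c.b_symm y y.2 z z.2]
    exact c.b_sm_left s z z.2 y y.2
  π_ρ s y := (c.q_sm s y y.2).trans (by rw [sq]; rfl)
  f_self y := (c.q4c_b_self h y.2).trans (by rw [RingHom.id_apply]; ring)
  f_g_left _ _ z := c.q4c_b_one z.2
  f_g_right _ _ z := (c.b_symm z z.2 1 (one_mem _)).trans (c.q4c_b_one z.2)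
  π_g s t := ((c.q_eq_zero 1 (one_mem _)).2 rfl).trans (by simp)
  ne := let ⟨u, hu, h1⟩ := M.exists_ne 1; ⟨⟨u, hu⟩, fun e => h1 (congrArg Subtype.val e)⟩

theorem q4c_gr {Y : Type*} [Group Y] {H : Subgroup A} {H' : Subgroup A'} {f : Y →* A} {f' : Y →* A'}
    (h : Function.Injective f) (h' : Function.Injective f') (m : ∀ u, u ∈ H ↔ ∃ y, u = f y)
    (m' : ∀ u, u ∈ H' ↔ ∃ y, u = f' y) : Gr H H' (f.prod f').range where
  le := by rintro _ ⟨y, rfl⟩; exact ⟨(m _).2 ⟨y, rfl⟩, (m' _).2 ⟨y, rfl⟩⟩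
  left u hu := let ⟨y, e⟩ := (m u).1 hu; ⟨f' y, y, by rw [e]; rfl⟩
  right u hu := let ⟨y, e⟩ := (m' u).1 hu; ⟨f y, y, by rw [e]; rfl⟩
  inj_left u := by
    rintro ⟨y, e⟩
    obtain rfl : y = 1 := h ((congrArg Prod.fst e).trans (map_one f).symm)
    exact (congrArg Prod.snd e).symm.trans (map_one f')
  inj_right u := by
    rintro ⟨y, e⟩
    obtain rfl : y = 1 := h' ((congrArg Prod.snd e).trans (map_one f').symm)
    exact (congrArg Prod.fst e).symm.trans (map_one f)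

end

omit [Finite A] [Finite F] in
theorem C4.q4c_id (c : C4 M F) (h : ∀ y z, c.D.f y z = 0) : c.D.ε = -1 ∧ ∀ t, c.D.σ t = t := by
  have hg := c.bit.resolve_right fun ⟨y, z, e⟩ => e (h y z)
  have h1 : ∀ t, t + c.D.ε * c.D.σ t = 0 := fun t => by
    have := c.D.π_g 1 t
    rw [hg, c.D.π_one, map_one] at this
    linear_combination -this
  have h2 : c.D.ε = -1 := by
    have := h1 1
    rw [map_one] at this
    linear_combination this
  exact ⟨h2, fun t => by have := h1 t; rw [h2] at this; linear_combination -this⟩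

theorem C4.q4c_zero (c : C4 M F) (c' : C4 M' F') (hF : Nat.card F = Nat.card F')
    (h4 : Nat.card (M.U 4) = Nat.card (M'.U 4)) (h : ∀ y z, c.D.f y z = 0) : ∀ y z, c'.D.f y z = 0 := by
  obtain ⟨h1, h2⟩ := c.q4c_id h
  obtain ⟨y, hy⟩ := c.D.exists_π_ne
  have h3 : (2 : F) = 0 := by
    have := c.D.f_self y
    rw [h, h1, h2] at this
    exact (mul_eq_zero.1 (by linear_combination -this : 2 * c.D.π y = 0)).resolve_right hy
  have := Fintype.ofFinite F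
  have := CharTwo.of_one_ne_zero_of_two_eq_zero one_ne_zero h3
  refine c'.D.f_eq_zero_of_even (by rw [← h4, ← hF, c.D.card_C h2 h]) ?_
  rw [← hF, Nat.card_eq_fintype_card, Nat.even_iff]
  exact FiniteField.even_card_iff_char_two.1 (ringChar.eq F 2)

omit [Finite A] [Finite F] in
theorem B4.c4_red (c : B4 M F) (h : M.Y 0 ≠ ⊥) (h' : M.Y 4 = M.U 4) : Nonempty (C4 (M.rev 5) F) := by
  have D := MS.qrd41 h
  have he : c.e ≠ 1 := fun e => one_ne_zero (c.q_e.symm.trans ((c.q_eq_zero _ c.e_mem).2 e))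
  have h1 := c.qr.x_ne D one_ne_zero
  have px : Par (M.U 4) F c.x := h' ▸ c.qr.toPar
  have pz : Par (M.U 2) F fun t => M.ph 1 c.e (c.x t) := by
    simp only [MS.ph_eq he]
    exact px.conj fun _ => MS.R_mem_iff (MS.mu_R (c := 6) c.e_mem he (by norm_num)) (by norm_num)
  exact ⟨{
    D := c.pqd h
    x := c.x
    z := fun t => M.ph 1 c.e (c.x t)
    ι := MonoidHom.mk' (fun y => M.ph 4 (c.x 1) y) fun _ _ => MS.ph_mul
    px := px
    pz := pz
    ι_inj := (injective_iff_map_eq_one _).2 fun _ e => Subtype.ext ((MS.ph_eq_one.1 e).resolve_left h1)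
    ι_mem := fun u => ⟨fun hu => let ⟨v, hv, e⟩ := MS.ph_surj (j := 1) (k := 3) (px.mem' 1) h1 hu (by norm_num)
      ⟨⟨v, hv⟩, e.symm⟩, by rintro ⟨y, rfl⟩; exact MS.ph_mem (j := 1) (k := 3) (px.mem' 1) y.2 (by norm_num)⟩
    comm13 := fun s t => (MS.Y_commute (c.qr.toPar.mem' s) (pz.mem' (-t)) (by norm_num)).commutator_eq.trans
      (map_one _).symm
    comm24 := fun a b => by
      rw [← commutatorElement_inv]
      refine (congrArg _ (c.rel13 b b.2 a a.2)).trans ?_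
      rw [← pz.neg, neg_neg]
      rfl
    comm14 := fun s y => by
      rw [← commutatorElement_inv, c.rel14 y y.2, mul_inv_rev, ← c.qr.ph_sm D, c.qr.sm_neg' D y.2, MS.ph_inv, inv_inv,
        ← pz.neg]
      rfl
    bit := .inl fun _ _ => rfl }⟩

theorem C4.par (c : C4 M F) : Nat.card (M.U 1) = Nat.card F ∧ (Nat.card (M.U 4) = Nat.card F ∨
    Nat.card (M.U 4) = Nat.card F ^ 2 ∨ ∃ q, Nat.card F = q ^ 2 ∧ Nat.card (M.U 4) = q ^ 3) := by
  refine ⟨c.px.card, ?_⟩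
  have h1 : 1 < Nat.card F := Finite.one_lt_card
  obtain h | h | h | h := c.D.card_cases
  · exact .inl h
  · exact .inr (.inl h)
  · have h2 : Nat.card (M.U 4) < Nat.card F := by
      by_contra! h2
      nlinarith
    obtain h3 | h3 := c.D.card_id (c.q4c_id (c.D.f_eq_zero_of_lt h2)).2
    · exact .inl h3
    · exact .inr (.inl h3)
  · obtain ⟨q, hq⟩ := (Nat.pow_dvd_pow_iff two_ne_zero).1 (h ▸ pow_dvd_pow (Nat.card F) (by norm_num : 2 ≤ 3))
    have h2 : Nat.card F = q ^ 2 := by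
      refine Nat.eq_of_mul_eq_mul_left (by positivity : 0 < Nat.card F ^ 2) ?_
      rw [← mul_pow, ← hq, h]
      ring
    exact .inr (.inr ⟨q, h2, by rw [hq, h2]; ring⟩)

theorem C4.link (c : C4 M F) (c' : C4 M' F') (h1 : Nat.card (M.U 1) = Nat.card (M'.U 1))
    (h4 : Nat.card (M.U 4) = Nat.card (M'.U 4)) : Link 4 M.U M'.U := by
  have hF : Nat.card F = Nat.card F' := c.px.card.symm.trans (h1.trans c'.px.card)
  obtain ⟨ψ, θ, a, ha, r1, r2, r3, r4⟩ := c.D.exists_iso c'.D hF h4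
    ⟨c.q4c_zero c' hF h4, c'.q4c_zero c hF.symm h4.symm⟩
  obtain ⟨Γ1, g1, m1⟩ := c.px.exists_gr (c'.px.comp ψ.toAddEquiv)
  obtain ⟨Γ3, g3, m3⟩ := c.pz.exists_gr (c'.pz.comp (ψ.toAddEquiv.trans (AddAut.mulLeft (Units.mk0 a ha))))
  replace m1 : ∀ p, p ∈ Γ1 ↔ ∃ t, p = (c.x t, c'.x (ψ t)) := m1
  replace m3 : ∀ p, p ∈ Γ3 ↔ ∃ t, p = (c.z t, c'.z (a * ψ t)) := m3
  have g2 : Gr (M.U 2) (M'.U 2) (c.ι.prod (c'.ι.comp θ.toMonoidHom)).range :=
    q4c_gr c.ι_inj (c'.ι_inj.comp θ.injective) c.ι_mem fun u => (c'.ι_mem u).trans θ.surjective.exists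
  have g4 : Gr (M.U 4) (M'.U 4) ((M.U 4).subtype.prod ((M'.U 4).subtype.comp θ.toMonoidHom)).range :=
    q4c_gr Subtype.val_injective (Subtype.val_injective.comp θ.injective)
      (fun u => ⟨fun h => ⟨⟨u, h⟩, rfl⟩, by rintro ⟨y, rfl⟩; exact y.2⟩)
      fun u => ⟨fun h => ⟨θ.symm ⟨u, h⟩, by simp⟩, by rintro ⟨y, rfl⟩; exact (θ y).2⟩
  have k : ∀ {i : ℤ} {Γ Γ' : Subgroup (A × A')}, Gr (M.U i) (M'.U i) Γ → Gr (M.U (i + 1)) (M'.U (i + 1)) Γ' →
      ∀ u ∈ Γ, ∀ v ∈ Γ', ⁅u, v⁆ = 1 := fun g g' u hu v hv =>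
    Prod.ext (MS.commute_adj (g.le hu).1 (g'.le hv).1 (.inl rfl)).commutator_eq
      (MS.commute_adj (g.le hu).2 (g'.le hv).2 (.inl rfl)).commutator_eq
  refine ⟨fun i => if i = 1 then Γ1 else if i = 2 then (c.ι.prod (c'.ι.comp θ.toMonoidHom)).range else if i = 3 then Γ3
    else ((M.U 4).subtype.prod ((M'.U 4).subtype.comp θ.toMonoidHom)).range, fun i h1 h2 => ?_,
    fun i j h1 h2 h3 u hu v hv => ?_⟩
  · obtain rfl | rfl | rfl | rfl : i = 1 ∨ i = 2 ∨ i = 3 ∨ i = 4 := by omega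
    exacts [g1, g2, g3, g4]
  · obtain ⟨rfl, rfl⟩ | ⟨rfl, rfl⟩ | ⟨rfl, rfl⟩ | ⟨rfl, rfl⟩ | ⟨rfl, rfl⟩ | ⟨rfl, rfl⟩ : i = 1 ∧ j = 2 ∨ i = 2 ∧ j = 3 ∨
        i = 3 ∧ j = 4 ∨ i = 1 ∧ j = 3 ∨ i = 2 ∧ j = 4 ∨ i = 1 ∧ j = 4 := by omega
    · rw [k g1 g2 u hu v hv]
      exact one_mem _
    · rw [k g2 g3 u hu v hv]
      exact one_mem _
    · rw [k g3 g4 u hu v hv]
      exact one_mem _
    · obtain ⟨s, rfl⟩ := (m1 u).1 hu
      obtain ⟨t, rfl⟩ := (m3 v).1 hv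
      refine mem_Iv (k := 2) ⟨c.D.g s (-t), Prod.ext ?_ ?_⟩ (by norm_num) (by norm_num)
      · exact (c.comm13 s (-t)).symm.trans (by rw [neg_neg]; rfl)
      · refine (congrArg c'.ι (r4 s (-t))).trans ((c'.comm13 _ _).symm.trans ?_)
        rw [map_neg, mul_neg, neg_neg]
        rfl
    · obtain ⟨y, rfl⟩ := hu
      obtain ⟨w, rfl⟩ := hv
      refine mem_Iv (k := 3) ((m3 _).2 ⟨c.D.f w y, Prod.ext (c.comm24 y w) ?_⟩) (by norm_num) (by norm_num)
      exact (c'.comm24 (θ y) (θ w)).trans (congrArg c'.z (r2 w y))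
    · obtain ⟨s, rfl⟩ := (m1 u).1 hu
      obtain ⟨y, rfl⟩ := hv
      have e : ⁅(c.x s, c'.x (ψ s)), ((M.U 4).subtype.prod ((M'.U 4).subtype.comp θ.toMonoidHom)) y⁆ =
          (c.ι.prod (c'.ι.comp θ.toMonoidHom)) (c.D.ρ s y) * (c.z (-(s * c.D.π y)), c'.z (a * ψ (-(s * c.D.π y)))) := by
        refine Prod.ext (c.comm14 s y) ((c'.comm14 (ψ s) (θ y)).trans ?_)
        rw [← r3, r1, map_neg, map_mul, mul_neg, mul_left_comm]
        rfl
      rw [e]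
      exact mul_mem (mem_Iv (k := 2) ⟨_, rfl⟩ (by norm_num) (by norm_num))
        (mem_Iv (k := 3) ((m3 _).2 ⟨_, rfl⟩) (by norm_num) (by norm_num))

end CfsgLib.MP
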