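import Cfsg.Agent.Lib.MP.Q4A
import Cfsg.Agent.Lib.MP.QE
import Cfsg.Agent.Lib.MP.QS

/-!
# Package Q4D: wide quadrangles (see `plans/MP.md`)
-/

set_option autoImplicit false

namespace CfsgLib.MP
open Cfsg CfsgLib.Tits MulAction
open scoped commutatorElement

theorem MS.comm14 {A : Type*} [Group A] {M : MS 4 A} {u y : A} (hu : u ∈ M.U 1) (hy : y ∈ M.U 4) :
    ⁅u, y⁆ = M.ph 1 u y * (M.ph 4 y u)⁻¹ := by
  obtain ⟨g, hg, e⟩ := MS.fst hu hy (by norm_num)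
  obtain ⟨g', hg', e'⟩ := MS.lst hy (inv_mem hu) (by norm_num)
  have e1 : ⁅u, y⁆ = M.ph 1 u y * g := by rw [commutatorElement_def, e, mul_inv_cancel_right]
  have e2 : ⁅u, y⁆ = g' * M.ph 4 y u⁻¹ := by
    rw [commutatorElement_def, mul_assoc, mul_assoc, ← mul_assoc y, e']; group
  have := MS.uniq_left (i := 2) (k := 3) (j := 3) (MS.ph_mem hu hy (by norm_num))
    (Iv_single hg' (by norm_num) (by norm_num)) (Iv_mono hg (by norm_num) (by norm_num))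
    (mem_Iv (MS.ph_mem (k := 3) hy (inv_mem hu) (by norm_num)) le_rfl le_rfl) (by norm_num) (by norm_num)
    (e1.symm.trans e2)
  rw [e1, this.2, MS.ph_inv]

theorem B4.c4_wide {A : Type*} [Group A] [Finite A] {M : MS 4 A} {F : Type*} [Field F] (c : B4 M F) (h : M.Y 0 ≠ ⊥)
    (h' : M.Y 4 ≠ M.U 4) : ∃ (K : Type) (_ : Field K) (_ : Fintype K), Nonempty (C4 M K) := by
  have D := MS.qrd41 h
  have E := MS.qrd14 h h'
  have e1 : c.e ≠ 1 := fun e => one_ne_zero (c.q_e.symm.trans ((c.q_eq_zero _ c.e_mem).2 e))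
  obtain ⟨K, _, _, X, d, hX⟩ := E.exists_qr c.e_mem e1
  have xY : ∀ t, c.x t ∈ M.Y 4 := c.qr.toPar.mem'
  have xU : ∀ t, c.x t ∈ M.U 4 := fun t => (xY t).1
  have x1 : c.x 1 ≠ 1 := c.qr.x_ne D one_ne_zero
  have XU : ∀ s, X s ∈ M.U 1 := d.toPar.mem'
  have r4 : M.R 4 (M.mu 4 (c.x 1)) := MS.mu_R (xU 1) x1 (by norm_num)
  have r1 : M.R 6 (M.mu 1 c.e) := MS.mu_R c.e_mem e1 (by norm_num)
  obtain ⟨Z, hZ⟩ : ∃ Z : K → A, ∀ s, Z s = M.mu 4 (c.x 1) * X s * (M.mu 4 (c.x 1))⁻¹ := ⟨_, fun _ => rfl⟩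
  have pz : Par (M.U 3) K Z := by
    rw [show Z = _ from funext hZ]
    exact d.toPar.conj fun u => MS.R_mem_iff r4 (by norm_num)
  obtain ⟨ι, hι⟩ : ∃ ι : A →* A, ∀ y, ι y = M.mu 1 c.e * y * (M.mu 1 c.e)⁻¹ :=
    ⟨(MulAut.conj (M.mu 1 c.e)).toMonoidHom, fun _ => rfl⟩
  have ιph : ∀ y, M.ph 1 c.e y = ι y := fun y => by rw [hι, MS.ph_eq e1]
  have ιU : ∀ {y}, y ∈ M.U 4 → ι y ∈ M.U 2 := fun hy => by rw [hι]; exact MS.R_mem r1 hy (by norm_num)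
  have ιinj : Function.Injective ι := fun a b e => by simpa [hι] using e
  have ιρ : ∀ s y, ι (M.sm 1 X s y) = M.ph 1 (X s) y := fun s y => by rw [← ιph, ← hX, d.ph_sm E]
  have ρU : ∀ s {y}, y ∈ M.U 4 → M.sm 1 X s y ∈ M.U 4 := fun s _ hy => d.sm_mem E hy
  have c23 : ∀ {y}, y ∈ M.U 2 → ∀ t, Z t * y = y * Z t := fun hy t => (MS.commute_adj (pz.mem' t) hy (by norm_num)).eq
  have c43 : ∀ {y}, y ∈ M.U 4 → ∀ t, y * Z t * y⁻¹ = Z t := fun hy t =>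
    (MS.commute_adj hy (pz.mem' t) (by norm_num)).mul_inv_cancel
  -- the functions `P` and `f`
  have : ∀ y ∈ M.U 4, ∀ s, ∃ t, M.ph 4 y (X s) = Z t := fun y hy s =>
    (pz.mem _).1 (MS.ph_mem hy (XU s) (by norm_num))
  choose! P hP using this
  have : ∀ b ∈ M.U 4, ∀ a ∈ M.U 4, ∃ t, ⁅ι a, b⁆ = Z t := fun b hb a ha =>
    (pz.mem _).1 (MS.comm2 (ιU ha) hb (by norm_num))
  choose! f hf using this
  have r14 : ∀ s, ∀ y ∈ M.U 4, ⁅X s, y⁆ = ι (M.sm 1 X s y) * Z (-P y s) := fun s y hy => by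
    rw [MS.comm14 (XU s) hy, ιρ, hP y hy, pz.neg]
  have u23 : ∀ {a a' s t}, a ∈ M.U 2 → a' ∈ M.U 2 → a * Z s = a' * Z t → a = a' ∧ s = t := fun ha ha' e =>
    (MS.uniq_left (k := 3) (j := 3) ha ha' (mem_Iv (pz.mem' _) le_rfl le_rfl) (mem_Iv (pz.mem' _) le_rfl le_rfl)
      (by norm_num) (by norm_num) e).imp_right fun e => pz.inj e
  have fl : ∀ b ∈ M.U 4, ∀ b' ∈ M.U 4, ∀ a ∈ M.U 4, f (b * b') a = f b a + f b' a := fun b hb b' hb' a ha => pz.inj (by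
    rw [← hf _ (mul_mem hb hb') a ha, pz.add, ← c43 hb (f b' a), ← hf _ hb a ha, ← hf _ hb' a ha]
    simp only [commutatorElement_def]; group)
  have fr : ∀ b ∈ M.U 4, ∀ a ∈ M.U 4, ∀ a' ∈ M.U 4, f b (a * a') = f b a + f b a' := fun b hb a ha a' ha' => pz.inj (by
    have : Z (f b a') = ι a * Z (f b a') * (ι a)⁻¹ := by rw [← c23 (ιU ha), mul_inv_cancel_right]
    rw [← hf _ hb _ (mul_mem ha ha'), add_comm, pz.add, this, ← hf _ hb a ha, ← hf _ hb a' ha', map_mul]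
    simp only [commutatorElement_def]; group)
  have f0l : ∀ b ∈ M.Y 4, ∀ a ∈ M.U 4, f b a = 0 := fun b hb a ha => pz.eq_one.1 (by
    rw [← hf _ hb.1 a ha, commutatorElement_eq_one_iff_commute]
    exact (MS.Y_commute hb (ιU ha) (by norm_num)).symm)
  have f0r : ∀ b ∈ M.U 4, ∀ a ∈ M.Y 4, f b a = 0 := fun b hb a ha => pz.eq_one.1 (by
    rw [← hf _ hb a ha.1, commutatorElement_eq_one_iff_commute, hι]
    exact MS.Y_commute (MS.R_mem_Y (j := 2) r1 ha (by norm_num)) hb (by norm_num))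
  have fc : ∀ b ∈ M.U 4, ∀ b', b⁻¹ * b' ∈ M.Y 4 → ∀ a ∈ M.U 4, f b' a = f b a := fun b hb b' hb' a ha => by
    rw [← mul_inv_cancel_left b b', fl b hb _ hb'.1 a ha, f0l _ hb' a ha, add_zero]
  have Pm : ∀ y ∈ M.U 4, ∀ y' ∈ M.U 4, ∀ s, P (y * y') s = P y s + P y' s + f y (M.sm 1 X s y') := by
    intro y hy y' hy' s
    have a1 : y * ι (M.sm 1 X s y') * y⁻¹ = ι (M.sm 1 X s y') * Z (-f y (M.sm 1 X s y')) := by
      rw [← c23 (ιU (ρU s hy')), pz.neg, ← hf _ hy _ (ρU s hy'), commutatorElement_def]; group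
    have a2 : ⁅X s, y * y'⁆ = ⁅X s, y⁆ * (y * ⁅X s, y'⁆ * y⁻¹) := by simp only [commutatorElement_def]; group
    rw [r14 s _ (mul_mem hy hy'), r14 s y hy, r14 s y' hy', ← conj_mul, a1, c43 hy, mul_assoc (ι _), ← mul_assoc (Z _),
      ← mul_assoc (Z _), c23 (ιU (ρU s hy')), mul_assoc (ι _), mul_assoc (ι _), ← pz.add, ← pz.add, ← mul_assoc] at a2
    linear_combination -(u23 (ιU (ρU s (mul_mem hy hy'))) (mul_mem (ιU (ρU s hy)) (ιU (ρU s hy'))) a2).2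
  have P1 : ∀ s, P 1 s = 0 := fun s => pz.eq_one.1 (by rw [← hP 1 (one_mem _), MS.ph_one])
  have Px : ∀ s, P (c.x 1) s = s := fun s => pz.inj (by rw [← hP _ (xU 1), MS.ph_eq x1, hZ])
  have Psemi : ∀ y ∈ M.U 4, y ≠ 1 → ∃ (a : K) (α : K →+* K), a ≠ 0 ∧ ∀ s, P y s = a * α s := fun y hy y1 => by
    have t := MS.mu_T (xU 1) x1 hy y1
    obtain ⟨a, α, ha, e, -⟩ := d.semi E t (fun u hu => MS.T_mem t hu (by norm_num))
      (fun u hu => MS.T_mem t hu (by norm_num)) fun u hu => MS.T_mem_Y t hu (by norm_num)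
    refine ⟨a, α, ha, fun s => pz.inj ?_⟩
    rw [← hP y hy, hZ, ← e, MS.ph_eq y1]; group
  have Pl : ∀ y ∈ M.U 4, ∀ s, P y s = s * P y 1 := fun y hy s => by
    have k : ∀ s, P (y * c.x 1) s = P y s + s := fun s => by
      rw [Pm y hy _ (xU 1), f0r y hy _ (d.sm_mem₀ E (xY 1)), add_zero, Px]
    by_cases y1 : y = 1
    · rw [y1, P1, P1, mul_zero]
    by_cases y2 : y * c.x 1 = 1
    · rw [y2] at k
      linear_combination P1 s - k s - s * P1 1 + s * k 1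
    obtain ⟨a, α, ha, e⟩ := Psemi y hy y1
    obtain ⟨a', α', -, e'⟩ := Psemi _ (mul_mem hy (xU 1)) y2
    obtain rfl : α = RingHom.id K :=
      dedekind3 (a := a') (α := α') ha one_ne_zero fun t => by rw [← e', ← e, k, one_mul, RingHom.id_apply]
    simp [e, mul_comm]
  have frρ : ∀ y ∈ M.U 4, ∀ y' ∈ M.U 4, ∀ s, f y (M.sm 1 X s y') = s * f y y' := fun y hy y' hy' s => by
    have a1 := Pm y hy y' hy' s
    have a2 := Pm y hy y' hy' 1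
    rw [Pl _ (mul_mem hy hy'), Pl y hy, Pl y' hy'] at a1
    rw [d.sm_one E] at a2
    linear_combination s * a2 - a1
  -- the torus
  obtain ⟨N, hN⟩ : ∃ N : K → K, ∀ s, N s = P (M.sm 1 X s (c.x 1)) 1 := ⟨_, fun _ => rfl⟩
  have N0 : N 0 = 0 := by rw [hN, d.sm_zero E, P1]
  have tor : ∀ s, s ≠ 0 → ∀ y ∈ M.U 4, ∀ t, M.hh 1 X s * Z (t * P y 1) * (M.hh 1 X s)⁻¹ =
      Z (s⁻¹ ^ 2 * t * P (M.sm 1 X s y) 1) := fun s hs y hy t => by
    rw [← Pl y hy, ← hP y hy, MS.T_ph (j := 4) (d.hh_T E hs) hy (by norm_num), d.hh_x E hs, ← d.sm_eq E hs,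
      hP _ (ρU s hy), Pl _ (ρU s hy)]
  have torZ : ∀ s, s ≠ 0 → ∀ t, M.hh 1 X s * Z t * (M.hh 1 X s)⁻¹ = Z (s⁻¹ ^ 2 * t * N s) := fun s hs t => by
    rw [hN, ← tor s hs _ (xU 1), Px, mul_one]
  have Pρ : ∀ s, ∀ y ∈ M.U 4, P (M.sm 1 X s y) 1 = N s * P y 1 := fun s y hy => by
    by_cases hs : s = 0
    · rw [hs, d.sm_zero E, P1, N0, zero_mul]
    have := pz.inj ((tor s hs y hy 1).symm.trans (torZ s hs _))
    field_simp at this
    linear_combination this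
  have flρ : ∀ s, ∀ b ∈ M.U 4, ∀ a ∈ M.U 4, f (M.sm 1 X s b) a = N s / s * f b a := fun s b hb a ha => by
    by_cases hs : s = 0
    · rw [hs, d.sm_zero E, f0l _ (one_mem _) a ha, div_zero, zero_mul]
    have a1 := d.hh_ph E hs ha
    rw [hX, ιph, ← ιρ] at a1
    have a2 := (MS.Y_commute a1 (ρU s hb) (by norm_num)).eq
    have a3 := torZ s hs (f b a)
    rw [← hf b hb a ha, conjugate_commutatorElement, ← d.sm_eq E (v := b) hs] at a3
    have a4 := hf _ (ρU s hb) _ (ρU s⁻¹ ha)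
    rw [frρ _ (ρU s hb) a ha] at a4
    have : Z (s⁻¹ * f (M.sm 1 X s b) a) = Z (s⁻¹ ^ 2 * f b a * N s) := by
      rw [← a3, ← a4]
      generalize M.hh 1 X s * ι a * (M.hh 1 X s)⁻¹ = p at *
      generalize ι (M.sm 1 X s⁻¹ a) = r at *
      obtain ⟨w, rfl⟩ : ∃ w, r = p * w := ⟨p⁻¹ * r, by group⟩
      rw [inv_mul_cancel_left] at a2
      rw [commutatorElement_def, commutatorElement_def, mul_assoc p, a2]; group
    have := pz.inj this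
    field_simp at this ⊢
    linear_combination this
  obtain ⟨b₀, hb₀, a₀, ha₀, f0⟩ : ∃ b ∈ M.U 4, ∃ a ∈ M.U 4, f b a ≠ 0 := by
    by_contra! k
    refine h' (le_antisymm inf_le_left fun b hb => MS.mem_Y'.2 ⟨hb, fun v hv => ?_⟩)
    obtain ⟨a, ha, rfl⟩ := MS.ph_surj (j := 4) c.e_mem e1 hv (by norm_num)
    rw [ιph, Commute.symm_iff, ← commutatorElement_eq_one_iff_commute, hf b hb a ha, k b hb a ha, pz.zero]
  obtain ⟨σ, hσ⟩ : ∃ σ : K →+* K, ∀ s, σ s = N s / s := by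
    refine ⟨⟨⟨⟨fun s => N s / s, mul_right_cancel₀ f0 ?_⟩, fun s t => mul_right_cancel₀ f0 ?_⟩, div_zero _,
      fun s t => mul_right_cancel₀ f0 ?_⟩, fun _ => rfl⟩
    · rw [← flρ 1 _ hb₀ _ ha₀, d.sm_one E, one_mul]
    · dsimp only
      rw [← flρ _ _ hb₀ _ ha₀, mul_assoc, ← flρ _ _ hb₀ _ ha₀, ← flρ _ _ (ρU t hb₀) _ ha₀,
        fc _ (ρU _ hb₀) _ (d.mul s t _ hb₀) _ ha₀]
    · dsimp only
      rw [← flρ _ _ hb₀ _ ha₀, add_mul, ← flρ _ _ hb₀ _ ha₀, ← flρ _ _ hb₀ _ ha₀, ← fl _ (ρU s hb₀) _ (ρU t hb₀) _ ha₀,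
        fc _ (ρU _ hb₀) _ (d.sm_add E hb₀) _ ha₀]
  have Nσ : ∀ s, N s = s * σ s := fun s => by
    by_cases hs : s = 0
    · rw [hs, N0, zero_mul]
    · rw [hσ, mul_div_cancel₀ _ hs]
  -- the subfield
  have jX : ∀ t s, M.sm 4 c.x t (X s) = X (s * P (c.x t) 1) := fun t s => by
    rw [MS.sm, hP _ (xU t), Pl _ (xU t), hZ]; group
  have jadd : ∀ s t, P (c.x (s + t)) 1 = P (c.x s) 1 + P (c.x t) 1 := fun s t => by
    rw [c.qr.add, Pm _ (xU s) _ (xU t), f0l _ (xY s) _ (ρU _ (xU t)), add_zero]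
  have jneg : ∀ s, P (c.x (-s)) 1 = -P (c.x s) 1 := fun s => by
    have := jadd s (-s)
    rw [add_neg_cancel, c.qr.toPar.zero, P1] at this
    linear_combination -this
  have jN : ∀ s, N s = P (c.x (c.q (X s))) 1 := fun s => by
    rw [hN, ιinj ((ιρ s _).trans ((c.ph14 _ (XU s) 1).trans (ιph _))), one_mul]
  have jσ : ∀ t, σ (P (c.x t) 1) = P (c.x t) 1 := fun t => by
    by_cases k : P (c.x t) 1 = 0
    · rw [k, map_zero]
    have a1 := c.qr.sm_mul' D (s := t) (t := t) (XU 1)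
    rw [jX, jX, jX, one_mul, one_mul] at a1
    have a2 := jN (P (c.x t) 1)
    rw [← one_mul (P (c.x t) 1), ← jX, c.q_sm _ _ (XU 1), hX, c.q_e, mul_one, one_mul, sq, d.inj a1, Nσ] at a2
    exact mul_left_cancel₀ k a2
  have πg : ∀ s t, P (c.x (-c.b (X s) (X (-t)))) 1 = σ s * t + 1 * s * σ t := fun s t => by
    have := jN (s + -t)
    rw [d.add, c.q_mul _ (XU s) _ (XU _), jadd, jadd, ← jN, ← jN, Nσ, Nσ, Nσ, map_add, map_neg] at this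
    rw [jneg]
    linear_combination this
  have r13 : ∀ s t, ⁅X s, Z (-t)⁆ = ι (c.x (-c.b (X s) (X (-t)))) := fun s t => by
    rw [hZ, ← MS.ph_eq x1, c.rel13 _ (XU s) _ (XU _), ιph]
  have fs : ∀ y ∈ M.U 4, f y y = P y 1 - 1 * σ (P y 1) := fun y hy => by
    have a1 : ⁅X 1 * X 1, y⁆ = X 1 * ⁅X 1, y⁆ * (X 1)⁻¹ * ⁅X 1, y⁆ := by simp only [commutatorElement_def]; group
    have a2 : X 1 * Z (-P y 1) * (X 1)⁻¹ = ι (c.x (-c.b (X 1) (X (-P y 1)))) * Z (-P y 1) := by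
      rw [← r13, commutatorElement_def, inv_mul_cancel_right]
    rw [← d.add, r14 _ y hy, r14 1 y hy, d.sm_one E, ← conj_mul, a2,
      (MS.commute_adj (XU 1) (ιU hy) (by norm_num)).mul_inv_cancel, ← mul_assoc (ι y), mul_assoc _ (Z _),
      ← mul_assoc (Z _), c23 (ιU hy), mul_assoc (ι y) (Z _), ← pz.add, ← mul_assoc, ← map_mul, ← map_mul] at a1
    have m := mul_mem hy (xU (-c.b (X 1) (X (-P y 1))))
    have a3 := Pρ (1 + 1) y hy
    rw [ιinj (u23 (ιU (ρU _ hy)) (ιU (mul_mem m hy)) a1).1, Pm _ m y hy, Pm y hy _ (xU _), d.sm_one E, d.sm_one E,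
      fl y hy _ (xU _) y hy, f0l _ (xY _) y hy, f0r y hy _ (xY _), πg, Nσ, map_add, map_one] at a3
    linear_combination a3
  refine ⟨K, inferInstance, inferInstance, ⟨⟨⟨σ, 1, fun y => P y 1, fun b a => f b a,
    fun s y => ⟨M.sm 1 X s y, ρU s y.2⟩, fun s t => ⟨c.x (-c.b (X s) (X (-t))), xU _⟩, fun t => ?_, fun y z => ?_,
    fun y y' z => fl _ y.2 _ y'.2 _ z.2, fun y z z' => fr _ y.2 _ z.2 _ z'.2, fun y => ?_,
    fun s y z => (flρ s _ y.2 _ z.2).trans (by rw [hσ]), fun s y z => frρ _ y.2 _ z.2 s,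
    fun s y => (Pρ s _ y.2).trans (by rw [Nσ]), fun y => fs _ y.2, fun s t z => f0l _ (xY _) _ z.2,
    fun s t z => f0r _ z.2 _ (xY _), πg, ⟨⟨_, xU 1⟩, fun e => x1 (congrArg Subtype.val e)⟩⟩, X, Z,
    ι.comp (M.U 4).subtype, d.toPar, pz, ιinj.comp Subtype.val_injective, fun u => ⟨fun hu => ?_, ?_⟩, r13,
    fun a b => hf _ b.2 _ a.2, fun s y => (r14 s _ y.2).trans (by rw [Pl _ y.2]; rfl),
    Or.inr ⟨⟨_, hb₀⟩, ⟨_, ha₀⟩, f0⟩⟩⟩⟩
  · by_cases k : t = 0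
    · rw [k, map_zero, map_zero]
    have := jσ (c.q (X t))
    rw [← jN, Nσ, map_mul, mul_comm] at this
    exact mul_right_cancel₀ ((map_ne_zero σ).2 k) this
  · simpa only [d.sm_one E, Subgroup.coe_mul] using Pm _ y.2 _ z.2 1
  · rw [← pz.eq_one, ← hP _ y.2, hX, MS.ph_eq_one, OneMemClass.coe_eq_one, or_iff_left e1]
  · obtain ⟨a, ha, rfl⟩ := MS.ph_surj (j := 4) c.e_mem e1 hu (by norm_num)
    exact ⟨⟨a, ha⟩, ιph a⟩
  · rintro ⟨y, rfl⟩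
    exact ιU y.2

end CfsgLib.MP
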