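import Cfsg.Agent.Lib.MP.Mu

/-!
# Abelian sections `V / V₀` as additive groups (for the packages QE and QS)
-/

set_option autoImplicit false

namespace CfsgLib.MP
open Cfsg CfsgLib.Tits MulAction
open scoped commutatorElement

universe v

/-- `q` induces an isomorphism of `V / V₀` with `W` -/
structure QQ {A : Type*} [Group A] (V V₀ : Subgroup A) {W : Type*} [AddCommGroup W] (q : A → W) : Prop where
  mul : ∀ a ∈ V, ∀ b ∈ V, q (a * b) = q a + q b
  zero : ∀ a ∈ V, q a = 0 ↔ a ∈ V₀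
  surj : ∀ w, ∃ a ∈ V, q a = w

theorem exists_QQ {A : Type v} [Group A] {V V₀ : Subgroup A} (hc : ∀ a ∈ V, ∀ b ∈ V, ⁅a, b⁆ ∈ V₀) :
    ∃ (W : Type v) (_ : AddCommGroup W) (q : A → W), QQ V V₀ q := by
  classical
  have hn : (V₀.subgroupOf V).Normal := ⟨fun a ha g => by
    have := mul_mem (hc g g.2 a a.2) (show (a : A) ∈ V₀ from ha)
    rw [commutatorElement_def, inv_mul_cancel_right] at this
    exact this⟩
  let _ : CommGroup (V ⧸ V₀.subgroupOf V) := { (inferInstance : Group (V ⧸ V₀.subgroupOf V)) with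
    mul_comm := fun a b => by
      induction a using QuotientGroup.induction_on with | H a => ?_
      induction b using QuotientGroup.induction_on with | H b => ?_
      rw [← QuotientGroup.mk_mul, ← QuotientGroup.mk_mul, QuotientGroup.eq]
      simpa [Subgroup.mem_subgroupOf, commutatorElement_def, mul_assoc] using
        hc _ (inv_mem b.2) _ (inv_mem a.2) }
  refine ⟨Additive (V ⧸ V₀.subgroupOf V), inferInstance,
    fun a => if h : a ∈ V then Additive.ofMul (QuotientGroup.mk ⟨a, h⟩) else 0,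
    fun a ha b hb => ?_, fun a ha => ?_, fun w => ?_⟩
  · rw [dif_pos ha, dif_pos hb, dif_pos (mul_mem ha hb)]; rfl
  · rw [dif_pos ha]
    exact QuotientGroup.eq_one_iff (N := V₀.subgroupOf V) ⟨a, ha⟩
  · obtain ⟨a, ha⟩ := QuotientGroup.mk_surjective (Additive.toMul w)
    exact ⟨a, a.2, by rw [dif_pos a.2]; exact ha⟩

namespace QQ
variable {A W W' : Type*} [Group A] [AddCommGroup W] [AddCommGroup W'] {V V₀ V' V₀' : Subgroup A} {q : A → W}
  {q' : A → W'} {a b : A}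

theorem one (h : QQ V V₀ q) : q 1 = 0 := (h.zero 1 (one_mem _)).2 (one_mem _)

theorem inv (h : QQ V V₀ q) (ha : a ∈ V) : q a⁻¹ = -q a := by
  rw [eq_neg_iff_add_eq_zero, ← h.mul _ (inv_mem ha) _ ha, inv_mul_cancel, h.one]

theorem eq_iff (h : QQ V V₀ q) (ha : a ∈ V) (hb : b ∈ V) : a⁻¹ * b ∈ V₀ ↔ q a = q b := by
  rw [← h.zero _ (mul_mem (inv_mem ha) hb), h.mul _ (inv_mem ha) _ hb, h.inv ha, neg_add_eq_zero]

theorem mul_iff (h : QQ V V₀ q) (ha : a ∈ V) (hb : b ∈ V) : a * b ∈ V₀ ↔ q a + q b = 0 := by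
  rw [← h.zero _ (mul_mem ha hb), h.mul _ ha _ hb]

theorem exists_ne (h : QQ V V₀ q) (hlt : V₀ < V) : ∃ a ∈ V, q a ≠ 0 := by
  obtain ⟨a, ha, ha'⟩ := SetLike.exists_of_lt hlt
  exact ⟨a, ha, fun e => ha' ((h.zero a ha).1 e)⟩

theorem lift (h : QQ V V₀ q) (f : A → W') (h1 : ∀ a ∈ V, ∀ b ∈ V, f (a * b) = f a + f b)
    (h2 : ∀ a ∈ V, a ∈ V₀ → f a = 0) : ∃ φ : W →+ W', ∀ a ∈ V, φ (q a) = f a := by
  choose s hs hs' using h.surj
  have key : ∀ a ∈ V, f (s (q a)) = f a := fun a ha => by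
    have := h1 _ ha _ (mul_mem (inv_mem ha) (hs (q a)))
    rw [mul_inv_cancel_left, h2 _ (mul_mem (inv_mem ha) (hs _)) ((h.eq_iff ha (hs _)).2 (hs' _).symm),
      add_zero] at this
    exact this
  refine ⟨AddMonoidHom.mk' (fun w => f (s w)) fun w w' => ?_, key⟩
  rw [← h1 _ (hs w) _ (hs w'), ← key _ (mul_mem (hs w) (hs w')), h.mul _ (hs w) _ (hs w'), hs', hs']

theorem ext (h : QQ V V₀ q) {φ ψ : W →+ W'} (e : ∀ a ∈ V, φ (q a) = ψ (q a)) : φ = ψ := by
  ext w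
  obtain ⟨a, ha, rfl⟩ := h.surj w
  exact e a ha

end QQ

namespace MS
variable {n : ℕ} {A : Type*} [Group A] {M : MS n A} {i : ℤ} {u v : A}

theorem ph_inv_ph (hu : u ∈ M.U i) (h : u ≠ 1) (v : A) : M.ph i u⁻¹ (M.ph i u v) = v := by
  rw [ph_eq (inv_ne_one.2 h), ph_eq h, mu_inv hu]; group

theorem ph_ph_inv (hu : u ∈ M.U i) (h : u ≠ 1) (v : A) : M.ph i u (M.ph i u⁻¹ v) = v := by
  rw [ph_eq (inv_ne_one.2 h), ph_eq h, mu_inv hu]; group

theorem ph_la (hu : u ∈ M.U i) (v : A) : M.ph (i + n) (M.la i u) v = M.ph i u v := by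
  by_cases h : u = 1
  · simp [h]
  rw [ph_eq h, ph_eq (la_ne hu h), mu_la hu ⟨0, by ring⟩]

theorem ph_la' (hu : u ∈ M.U (i + n)) (v : A) : M.ph i (M.la (i + n) u) v = M.ph (i + n) u v := by
  by_cases h : u = 1
  · simp [h]
  rw [ph_eq h, ph_eq (la_ne hu h), mu_la hu ⟨1, by ring⟩]

end MS

end CfsgLib.MP
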