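import Cfsg.Agent.Lib.MP.Mu

/-!
# Package SQ: the sequence of a pair (see `plans/MP.md`)
-/

set_option autoImplicit false

namespace CfsgLib.MP
open Cfsg CfsgLib.Tits MulAction
open scoped commutatorElement

theorem exists_zseq {α : Type*} (P : ℤ → α → Prop) (S : ℤ → α → α → Prop)
    (hf : ∀ i a, P i a → ∃ b, P (i + 1) b ∧ S i a b) (hb : ∀ i b, P (i + 1) b → ∃ a, P i a ∧ S i a b) {i₀ : ℤ} {a₀ : α}
    (h0 : P i₀ a₀) : ∃ s : ℤ → α, s i₀ = a₀ ∧ (∀ i, P i (s i)) ∧ ∀ i, S i (s i) (s (i + 1)) := by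
  choose! F hF hF' using hf
  choose! B hB hB' using hb
  let f : ℕ → α := fun k => Nat.rec a₀ (fun k a => F (i₀ + k) a) k
  let g : ℕ → α := fun k => Nat.rec a₀ (fun k a => B (i₀ - k - 1) a) k
  have pf : ∀ k : ℕ, P (i₀ + k) (f k) := by
    intro k
    induction k with
    | zero => simpa [f] using h0
    | succ k ih =>
      have := hF _ _ ih
      rwa [show i₀ + k + 1 = i₀ + (k + 1 : ℕ) by push_cast; ring] at this
  have pg : ∀ k : ℕ, P (i₀ - k) (g k) := by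
    intro k
    induction k with
    | zero => simpa [g] using h0
    | succ k ih =>
      rw [show i₀ - (k + 1 : ℕ) = i₀ - k - 1 by push_cast; ring]
      exact hB (i₀ - k - 1) (g k) (by rwa [sub_add_cancel])
  let s : ℤ → α := fun i => if i₀ ≤ i then f (i - i₀).toNat else g (i₀ - i).toNat
  have s1 : ∀ k : ℕ, s (i₀ + k) = f k := fun k => by
    simp only [s]
    rw [if_pos (by omega), show (i₀ + k - i₀).toNat = k by omega]
  have s2 : ∀ k : ℕ, s (i₀ - k) = g k := fun k => by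
    simp only [s]
    split_ifs with c
    · obtain rfl : k = 0 := by omega
      simp [f, g]
    · rw [show (i₀ - (i₀ - k)).toNat = k by omega]
  refine ⟨s, by simpa [f] using s1 0, fun i => ?_, fun i => ?_⟩
  · by_cases c : i₀ ≤ i
    · obtain ⟨k, rfl⟩ : ∃ k : ℕ, i = i₀ + k := ⟨(i - i₀).toNat, by omega⟩
      rw [s1]; exact pf k
    · obtain ⟨k, rfl⟩ : ∃ k : ℕ, i = i₀ - k := ⟨(i₀ - i).toNat, by omega⟩
      rw [s2]; exact pg k
  · by_cases c : i₀ ≤ i
    · obtain ⟨k, rfl⟩ : ∃ k : ℕ, i = i₀ + k := ⟨(i - i₀).toNat, by omega⟩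
      rw [show i₀ + k + 1 = i₀ + (k + 1 : ℕ) by push_cast; ring, s1, s1]
      exact hF' _ _ (pf k)
    · obtain ⟨k, rfl⟩ : ∃ k : ℕ, i = i₀ - k - 1 := ⟨(i₀ - i - 1).toNat, by omega⟩
      rw [sub_add_cancel, s2, show i₀ - k - 1 = i₀ - (k + 1 : ℕ) by push_cast; ring, s2,
        show i₀ - (k + 1 : ℕ) = i₀ - k - 1 by push_cast; ring]
      exact hB' (i₀ - k - 1) (g k) (by rw [sub_add_cancel]; exact pg k)

namespace MS
variable {n : ℕ} {A : Type*} [Group A] {M : MS n A} {u v : A} {a : ℤ → A}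

theorem exists_seq' {i₀ : ℤ} (hu : u ∈ M.U i₀) (h : u ≠ 1) (hv : v ∈ M.U (i₀ + n - 1)) (h' : v ≠ 1) :
    ∃ a, M.Seq a ∧ a i₀ = u ∧ a (i₀ + n - 1) = v := by
  have hn := M.three
  obtain ⟨s, s0, hP, hS⟩ := exists_zseq
    (fun i (p : A × A) => p.1 ∈ M.U i ∧ p.1 ≠ 1 ∧ p.2 ∈ M.U (i + n - 1) ∧ p.2 ≠ 1)
    (fun i p p' => p'.1 = (M.mu i p.1)⁻¹ * p.2 * M.mu i p.1 ∧ p'.2 = M.la i p.1)
    (by
      rintro i ⟨x, y⟩ ⟨h1, h2, h3, h4⟩
      refine ⟨(_, _), ⟨?_, fun e => h4 (by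
        rw [show y = M.mu i x * ((M.mu i x)⁻¹ * y * M.mu i x) * (M.mu i x)⁻¹ by group, show _ * y * _ = 1 from e]
        simp), la_mem ⟨0, by ring⟩, la_ne h1 h2⟩, rfl, rfl⟩
      have := R_mem (M.R_inv (mu_spec h1 h2).2.2.2.2) h3 (j := i + 1) ⟨0, by ring⟩
      rwa [inv_inv] at this)
    (by
      rintro i ⟨x, y⟩ ⟨h1, h2, h3, h4⟩
      rw [show i + 1 + n - 1 = i + n by ring] at h3
      refine ⟨(M.ka (i + n) y, M.mu (i + n) y * x * (M.mu (i + n) y)⁻¹), ⟨ka_mem ⟨1, by ring⟩, ka_ne h3 h4,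
        R_mem (mu_spec h3 h4).2.2.2.2 h1 ⟨1, by ring⟩, by simpa using h2⟩, ?_, ?_⟩
      · simp only
        rw [mu_ka h3 ⟨1, by ring⟩]; group
      · simp only
        rw [la_ka h3 ⟨1, by ring⟩])
    (i₀ := i₀) (a₀ := (u, v)) ⟨hu, h, hv, h'⟩
  obtain ⟨x, hx⟩ : ∃ x : ℤ → A, ∀ i, x i = (s i).1 := ⟨_, fun _ => rfl⟩
  obtain ⟨y, hy⟩ : ∃ y : ℤ → A, ∀ i, y i = (s i).2 := ⟨_, fun _ => rfl⟩
  simp only [← hx, ← hy] at hP hS
  have c1 : ∀ i, (x i)⁻¹ * y i * x i = ⁅(x i)⁻¹, y i⁆ * y i := fun i => by rw [commutatorElement_def]; group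
  have c2 : ∀ i, ⁅(x i)⁻¹, y i⁆ ∈ M.I (i + 1) (i + n - 1 - 1) := fun i =>
    M.comm (by omega) (by omega) (inv_mem (hP i).1) (hP i).2.2.1
  have c3 : ∀ i, (x i)⁻¹ * y i * x i =
      x (i + 1) * ((x (i + 1))⁻¹ * y (i + 1) * x (i + 1)) * (y (i + 1))⁻¹ := fun i => by
    have := sh1 (M := M) (i := i) (u := (x i)⁻¹) (v := y i)
      (commute_adj (la_mem (j := i + n) ⟨0, by ring⟩) (hP i).2.2.1 (Or.inr rfl))
    rw [ka_inv (hP i).1, mu_inv (hP i).1, inv_inv, inv_inv, inv_inv, ← (hS i).1, ← (hS i).2] at this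
    rw [this]; group
  have pm : ∀ (d : ℕ) (i : ℤ), ((List.range d).map fun k : ℕ => x (i + 1 + k)).prod ∈ M.I (i + 1) (i + 1 + d - 1) :=
    fun d i => prod_mem_I fun k _ => (hP _).1
  have key : ∀ d : ℕ, d + 1 ≤ n → ∀ i, ∃ r ∈ M.I (i + d + 1) (i + n - 1),
      (x i)⁻¹ * y i * x i = ((List.range d).map fun k : ℕ => x (i + 1 + k)).prod * r := by
    intro d
    have cm : ∀ i, (x i)⁻¹ * y i * x i ∈ M.I (i + 1) (i + n - 1) := fun i => by
      rw [c1]
      exact mul_mem (Iv_mono (c2 i) le_rfl (by omega)) (mem_Iv (hP i).2.2.1 (by omega) le_rfl)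
    induction d with
    | zero => exact fun _ i => ⟨_, Iv_mono (cm i) (by omega) le_rfl, by simp⟩
    | succ d ih =>
      intro hd i
      obtain ⟨r, hr, e⟩ := ih (by omega) (i + 1)
      have e' : (x i)⁻¹ * y i * x i =
          ((List.range (d + 1)).map fun k : ℕ => x (i + 1 + k)).prod * (r * (y (i + 1))⁻¹) := by
        rw [c3, e, List.range_succ_eq_map, List.map_cons, List.prod_cons, List.map_map]
        simp only [Nat.cast_zero, add_zero, mul_assoc]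
        congr 4
        funext k
        simp only [Function.comp, Nat.succ_eq_add_one, Nat.cast_add, Nat.cast_one]
        congr 1; ring
      refine ⟨_, inter (i := i + 1) (l := i + n) ?_ (mul_mem (Iv_mono hr (by omega) (by omega))
        (inv_mem (mem_Iv (hP (i + 1)).2.2.1 (by omega) (by omega)))) (by omega) (by omega) (by omega), e'⟩
      rw [← inv_mul_eq_iff_eq_mul.2 e']
      exact mul_mem (inv_mem (Iv_mono (pm _ _) le_rfl (by omega))) (cm i)
  have rel : ∀ i, (x i)⁻¹ * y i * x i = ((List.range (n - 1)).map fun k : ℕ => x (i + 1 + k)).prod := fun i => by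
    obtain ⟨r, hr, e⟩ := key (n - 1) (by omega) i
    rw [e, Iv_empty hr (by omega), mul_one]
  have yx : ∀ i, y i = x (i + n - 1) := fun i => by
    have e := rel i
    rw [c1, show n - 1 = n - 2 + 1 by omega, List.range_succ, List.map_append, List.prod_append] at e
    simp only [List.map_cons, List.map_nil, List.prod_cons, List.prod_nil, mul_one] at e
    rw [show i + 1 + (n - 2 : ℕ) = i + n - 1 by omega] at e
    exact (uniq_right (hP i).2.2.1 (hP _).1 (c2 i) (Iv_mono (pm _ _) le_rfl (by omega)) (by omega) (by omega) e).2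
  have lx : ∀ i, M.la i (x i) = x (i + n) := fun i => by
    rw [← (hS i).2, yx, show i + 1 + n - 1 = i + n by ring]
  refine ⟨x, ⟨fun i => ?_, fun i => by rw [← yx]; exact (hS i).1, fun i => by rw [← yx]; exact rel i⟩,
    by rw [hx, s0], by rw [← yx, hy, s0]⟩
  have := mu_spec (hP i).1 (hP i).2.1
  rw [lx] at this
  convert this using 1
  have e := lx (i - n)
  rw [sub_add_cancel] at e
  rw [← e, ka_la (hP _).1 ⟨0, by ring⟩]

theorem exists_seq (hu : u ∈ M.U 1) (h : u ≠ 1) (hv : v ∈ M.U n) (h' : v ≠ 1) : ∃ a, M.Seq a ∧ a 1 = u ∧ a n = v := by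
  have := exists_seq' (i₀ := 1) hu h (v := v) (by rwa [show (1 : ℤ) + n - 1 = n by ring]) h'
  rwa [show (1 : ℤ) + n - 1 = n by ring] at this

theorem Seq.mem (h : M.Seq a) (i : ℤ) : a i ∈ M.U i := (h.mu i).1

theorem Seq.ne (h : M.Seq a) (i : ℤ) : a i ≠ 1 := (h.mu i).2.1

theorem Seq.ka (h : M.Seq a) {i j : ℤ} (e : j = i - n) : M.ka i (a i) = a j := by
  rw [e]; exact (h.mu i).eq.1

theorem Seq.la (h : M.Seq a) {i j : ℤ} (e : j = i + n) : M.la i (a i) = a j := by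
  rw [e]; exact (h.mu i).eq.2.1

theorem Seq.mu_per (h : M.Seq a) {i j : ℤ} (e : j = i + n) : M.mu j (a j) = M.mu i (a i) := by
  rw [← h.la e]
  exact mu_la (h.mem i) ⟨0, by rw [e]; ring⟩

/-- `μ(a_i) μ(a_{i+1})` does not depend on `i` -/
theorem Seq.mu_mul (h : M.Seq a) (i j : ℤ) :
    M.mu i (a i) * M.mu (i + 1) (a (i + 1)) = M.mu j (a j) * M.mu (j + 1) (a (j + 1)) := by
  have st : ∀ i, M.mu (i + 1) (a (i + 1)) * M.mu (i + 1 + 1) (a (i + 1 + 1)) =
      M.mu i (a i) * M.mu (i + 1) (a (i + 1)) := fun i => by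
    have := R_mu (M.R_inv (mu_R (h.mem (i + 1)) (h.ne (i + 1)) (c := 2 * (i + 1) + n) (by simp)))
      (h.mem (i + 1 + n - 1)) (j := i + 1 + 1) ⟨0, by ring⟩
    rw [inv_inv, ← h.step, h.mu_per (i := i) (j := i + 1 + n - 1) (by ring)] at this
    rw [← this, ← mul_assoc, ← mul_assoc, mul_inv_cancel, one_mul]
  have : ∀ i, M.mu i (a i) * M.mu (i + 1) (a (i + 1)) = M.mu 0 (a 0) * M.mu (0 + 1) (a (0 + 1)) := fun i => by
    induction i using Int.induction_on with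
    | zero => rfl
    | succ k ih => rw [st, ih]
    | pred k ih => rw [← st, sub_add_cancel, ih]
  rw [this i, this j]

/-- all components of the commutator of non-trivial elements of `U i`, `U (i + 3)` of a quadrangle are non-trivial -/
theorem mid_ne {M : MS 4 A} {i : ℤ} (hu : u ∈ M.U i) (h : u ≠ 1) (hv : v ∈ M.U (i + 3)) (h' : v ≠ 1) :
    ⁅u, v⁆ ∉ M.U (i + 1) ∧ ⁅u, v⁆ ∉ M.U (i + 2) := by
  obtain ⟨a, ha, e1, e2⟩ := exists_seq' (M := M) (i₀ := i) (inv_mem hu) (inv_ne_one.2 h) (v := v)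
    (by rwa [show i + (4 : ℕ) - 1 = i + 3 by push_cast; ring]) h'
  have e := ha.rel i
  rw [e1, e2] at e
  simp only [List.range_succ, List.range_zero, List.nil_append, List.cons_append, List.map_cons, List.map_nil,
    List.prod_cons, List.prod_nil, Nat.reduceSub, inv_inv, mul_one] at e
  rw [show i + 1 + (2 : ℕ) = i + (4 : ℕ) - 1 by push_cast; ring, e2, show i + 1 + (0 : ℕ) = i + 1 by simp,
    show i + 1 + (1 : ℕ) = i + 2 by push_cast; ring] at e
  have e' : ⁅u, v⁆ = a (i + 1) * a (i + 2) := by rw [commutatorElement_def, e]; group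
  rw [e']
  refine ⟨fun hc => ha.ne (i + 2) (eq_one_of_ne ((mul_mem_cancel_left (ha.mem _)).1 hc) (ha.mem _) (by omega)
    (by omega)), fun hc => ha.ne (i + 1) (eq_one_of_ne (ha.mem _) ((mul_mem_cancel_right (ha.mem _)).1 hc)
    (by omega) (by omega))⟩

end MS

end CfsgLib.MP
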